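import Cfsg.Agent.KnownB.GraphInv.Models
import Cfsg.Agent.KnownB.GraphInv.Det
import Cfsg.Agent.KnownB.AutPSL.Twist
import Cfsg.Agent.KnownB.AutPSL.Facts

/-! Involutory graph automorphisms of `PSL_n(q)`. -/

set_option autoImplicit false

namespace Cfsg.Agent.KnownB.GraphInv

open Matrix
open Cfsg.Agent.KnownB.AutPSL

universe u

section Reindex

variable {F : Type u} [Field F] {ι κ : Type} [Fintype ι] [DecidableEq ι] [Fintype κ] [DecidableEq κ]

theorem Cong.reindex (M : Matrix ι ι F) (e : κ ≃ ι) : Cong M (M.submatrix e e) := by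
  refine ⟨(1 : Matrix ι ι F).submatrix id e, (1 : Matrix ι ι F).submatrix e id, 1, ?_, ?_, ?_⟩
  · rw [Matrix.submatrix_mul_equiv, Matrix.one_mul, Matrix.submatrix_id_id]
  · rw [← Matrix.submatrix_mul _ _ e id e Function.bijective_id, Matrix.one_mul,
      Matrix.submatrix_one_equiv]
  · rw [Units.val_one, one_smul, Matrix.transpose_submatrix, Matrix.transpose_one]
    conv_lhs => enter [1, 2]; rw [← Matrix.submatrix_id_id M]
    rw [← Matrix.submatrix_mul _ _ e id id Function.bijective_id,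
      ← Matrix.submatrix_mul _ _ e id e Function.bijective_id, Matrix.one_mul, Matrix.mul_one]

theorem exists_fin_model (M : Matrix ι ι F) (hd : M.det ≠ 0) {n : ℕ} (hn : Fintype.card ι = n) :
    ∃ J : GL (Fin n) F, Cong M J.1 := by
  let e : Fin n ≃ ι := (finCongr hn.symm).trans (Fintype.equivFin ι).symm
  have h : (M.submatrix e e).det ≠ 0 := by rwa [Matrix.det_submatrix_equiv_self]
  exact ⟨GeneralLinearGroup.mkOfDetNeZero _ h, Cong.reindex M e⟩

end Reindex

variable {n : ℕ} {F : Type u} [Field F]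

/-- The graph automorphism of the form with matrix `J`. -/
noncomputable def gam (J : GL (Fin n) F) : MulAut (Matrix.ProjectiveSpecialLinearGroup (Fin n) F) :=
  A n F J⁻¹ * It n F

theorem gam_class (hn : 3 ≤ n) (J : GL (Fin n) F) : Cfsg.IsGraphAutClassPSL (gam J) :=
  ⟨hn, A n F J⁻¹, It n F, (isInnerDiagonal_iff _).2 ⟨_, rfl⟩, (isInverseTranspose_iff _).2 rfl, rfl⟩

theorem exists_gam {γ : MulAut (Matrix.ProjectiveSpecialLinearGroup (Fin n) F)}
    (hγ : Cfsg.IsGraphAutClassPSL γ) : ∃ J : GL (Fin n) F, γ = gam J := by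
  obtain ⟨-, δ, γ', hδ, hγ', rfl⟩ := hγ
  obtain ⟨g, rfl⟩ := (isInnerDiagonal_iff δ).1 hδ
  rw [isInverseTranspose_iff] at hγ'
  exact ⟨g⁻¹, by rw [gam, inv_inv, hγ']⟩

theorem itGL_inv_val (J : GL (Fin n) F) : (itGL J⁻¹).1 = J.1.transpose := by
  show ((J⁻¹)⁻¹).1.transpose = _
  rw [inv_inv]

variable [Fintype F]

theorem gam_eq_iff (hn : 2 ≤ n) (J J' : GL (Fin n) F) :
    gam J = gam J' ↔ ∃ u : Fˣ, J'.1 = (u : F) • J.1 := by
  rw [gam, gam, mul_left_inj, show A n F J⁻¹ = A n F J'⁻¹ ↔ A n F (J' * J⁻¹) = 1 by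
    rw [map_mul, map_inv, map_inv, mul_inv_eq_one, _root_.inv_inj]; exact eq_comm,
    A_eq_one_iff hn, GeneralLinearGroup.center_eq_range_scalar, MonoidHom.mem_range]
  constructor
  · rintro ⟨u, hu⟩
    refine ⟨u, ?_⟩
    rw [eq_mul_inv_iff_mul_eq] at hu
    rw [← hu, Units.val_mul, scalar_val, Matrix.smul_mul, Matrix.one_mul]
  · rintro ⟨u, hu⟩
    refine ⟨u, ?_⟩
    rw [eq_mul_inv_iff_mul_eq]
    exact Units.ext (by rw [Units.val_mul, scalar_val, Matrix.smul_mul, Matrix.one_mul, hu])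

theorem gam_order_iff (hn : 3 ≤ n) (J : GL (Fin n) F) :
    orderOf (gam J) = 2 ↔ J.1.transpose = J.1 ∨ J.1.transpose = -J.1 := by
  have hne : gam J ≠ 1 := fun h => A_Fd_ne_It hn J 1 (by
    rw [map_one, mul_one]
    rw [gam, map_inv, inv_mul_eq_one] at h
    exact h)
  have hsq : gam J ^ 2 = A n F (J⁻¹ * itGL J⁻¹) := by
    rw [pow_two, gam, mul_assoc, ← mul_assoc (It n F), It_A, mul_assoc, It_sq, mul_one, ← map_mul]
  have : Fact (Nat.Prime 2) := ⟨Nat.prime_two⟩
  rw [orderOf_eq_prime_iff, and_iff_left hne, hsq, A_eq_one_iff (by omega),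
    GeneralLinearGroup.center_eq_range_scalar, MonoidHom.mem_range]
  constructor
  · rintro ⟨u, hu⟩
    rw [eq_inv_mul_iff_mul_eq] at hu
    have h : J.1.transpose = (u : F) • J.1 := by
      rw [← itGL_inv_val, ← hu, Units.val_mul, scalar_val, Matrix.mul_smul, Matrix.mul_one]
    have hJ0 : J.1 ≠ 0 := fun h0 => by
      haveI : Nonempty (Fin n) := ⟨⟨0, by omega⟩⟩
      simpa [h0] using (GeneralLinearGroup.det J).ne_zero
    have h' := congrArg Matrix.transpose h
    rw [Matrix.transpose_transpose, Matrix.transpose_smul, h, smul_smul] at h'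
    nth_rewrite 1 [← one_smul F J.1] at h'
    have hu2 : (u : F) * u = 1 := (smul_left_injective _ hJ0 h').symm
    rcases mul_self_eq_one_iff.mp hu2 with e | e
    · exact Or.inl (by rw [h, e, one_smul])
    · exact Or.inr (by rw [h, e, neg_one_smul])
  · rintro (h | h)
    · refine ⟨1, ?_⟩
      rw [map_one, eq_inv_mul_iff_mul_eq, mul_one]
      exact Units.ext (by rw [itGL_inv_val, h])
    · refine ⟨-1, ?_⟩
      rw [eq_inv_mul_iff_mul_eq]
      exact Units.ext (by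
        rw [Units.val_mul, scalar_val, itGL_inv_val, h, Matrix.mul_smul, Matrix.mul_one]
        simp)

omit [Fintype F] in
theorem conj_gam (a J : GL (Fin n) F) :
    A n F a * gam J * (A n F a)⁻¹ = A n F (a * J⁻¹ * itGL a⁻¹) * It n F := by
  rw [gam, ← map_inv]
  calc A n F a * (A n F J⁻¹ * It n F) * A n F a⁻¹
      = A n F a * A n F J⁻¹ * (It n F * A n F a⁻¹) := by simp only [mul_assoc]
    _ = A n F a * A n F J⁻¹ * (A n F (itGL a⁻¹) * It n F) := by rw [It_A]
    _ = _ := by rw [map_mul, map_mul]; simp only [mul_assoc]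

theorem conj_iff (hn : 2 ≤ n) (J J' : GL (Fin n) F) :
    Cfsg.IsConjUnder (Cfsg.inndiagPSL n F) (gam J) (gam J') ↔ Cong J.1 J'.1 := by
  rw [inndiagPSL_eq]
  have key : ∀ a, A n F a * gam J * (A n F a)⁻¹ = gam J' ↔
      ∃ u : Fˣ, J'.1 = (u : F) • ((a⁻¹).1.transpose * J.1 * (a⁻¹).1) := by
    intro a
    rw [conj_gam, show A n F (a * J⁻¹ * itGL a⁻¹) * It n F =
      gam (a * J⁻¹ * itGL a⁻¹)⁻¹ by rw [gam, inv_inv], gam_eq_iff hn]
    refine exists_congr fun u => ?_
    have e : ((a * J⁻¹ * itGL a⁻¹)⁻¹).1 = (a⁻¹).1.transpose * J.1 * (a⁻¹).1 := by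
      rw [_root_.mul_inv_rev, _root_.mul_inv_rev, inv_inv, Units.val_mul, Units.val_mul,
        ← Matrix.mul_assoc]
      rfl
    rw [e]
  constructor
  · rintro ⟨_, ⟨a, rfl⟩, h⟩
    obtain ⟨u, hu⟩ := (key a).1 h.symm
    refine ⟨(a⁻¹).1, a.1, u⁻¹, by simp, by simp, ?_⟩
    rw [hu, smul_smul, ← Units.val_mul, inv_mul_cancel, Units.val_one, one_smul]
  · rintro ⟨P, Q, c, h1, h2, h3⟩
    refine ⟨_, ⟨(⟨Q, P, h2, h1⟩ : GL (Fin n) F), rfl⟩, ((key _).2 ⟨c⁻¹, ?_⟩).symm⟩
    show J'.1 = _ • (P.transpose * J.1 * P)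
    rw [h3, smul_smul, ← Units.val_mul, inv_mul_cancel, Units.val_one, one_smul]

theorem commute_gam_iff (hn : 2 ≤ n) (J g : GL (Fin n) F) :
    Commute (A n F g) (gam J) ↔ g ∈ simGL J.1 := by
  have h : Commute (A n F g) (gam J) ↔ A n F g * gam J * (A n F g)⁻¹ = gam J := by
    rw [mul_inv_eq_iff_eq_mul]; exact Iff.rfl
  rw [h, conj_gam, show A n F (g * J⁻¹ * itGL g⁻¹) * It n F =
    gam (g * J⁻¹ * itGL g⁻¹)⁻¹ by rw [gam, inv_inv], gam_eq_iff hn]
  have e : ((g * J⁻¹ * itGL g⁻¹)⁻¹).1 = (g⁻¹).1.transpose * J.1 * (g⁻¹).1 := by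
    rw [_root_.mul_inv_rev, _root_.mul_inv_rev, inv_inv, Units.val_mul, Units.val_mul,
      ← Matrix.mul_assoc]
    rfl
  rw [e, ← inv_mem_iff (H := simGL J.1), mem_simGL]
  constructor
  · rintro ⟨u, hu⟩
    refine ⟨u⁻¹, ?_⟩
    conv_rhs => rw [hu, smul_smul, ← Units.val_mul, inv_mul_cancel, Units.val_one, one_smul]
  · rintro ⟨u, hu⟩
    exact ⟨u⁻¹, by rw [hu, smul_smul, ← Units.val_mul, inv_mul_cancel, Units.val_one, one_smul]⟩

theorem center_eq_scalars : Subgroup.center (GL (Fin n) F) = Cfsg.Geo.scalars (Fin n) F := by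
  rw [GeneralLinearGroup.center_eq_range_scalar, scalars_eq_range]

theorem centralizer_eq (hn : 2 ≤ n) (J : GL (Fin n) F) :
    Cfsg.inndiagPSL n F ⊓ Subgroup.centralizer {gam J} = (simGL J.1).map (A n F) := by
  rw [inndiagPSL_eq]
  ext β
  rw [Subgroup.mem_inf, Subgroup.mem_centralizer_singleton_iff]
  constructor
  · rintro ⟨⟨g, rfl⟩, hg⟩
    exact ⟨g, (commute_gam_iff hn J g).1 hg, rfl⟩
  · rintro ⟨g, hg, rfl⟩
    exact ⟨⟨g, rfl⟩, (commute_gam_iff hn J g).2 hg⟩

theorem centralizer_equiv (hn : 2 ≤ n) (J : GL (Fin n) F) :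
    Nonempty (↥(Cfsg.inndiagPSL n F ⊓ Subgroup.centralizer {gam J}) ≃*
      Cfsg.projQuot (simGL J.1)) := by
  rw [centralizer_eq hn]
  let f := (A n F).comp (simGL J.1).subtype
  have hr : f.range = (simGL J.1).map (A n F) := by
    rw [MonoidHom.range_comp, Subgroup.range_subtype]
  have hk : f.ker = (Cfsg.Geo.scalars (Fin n) F).subgroupOf (simGL J.1) := by
    ext x
    rw [MonoidHom.mem_ker, Subgroup.mem_subgroupOf]
    exact (A_eq_one_iff hn x.1).trans (by rw [center_eq_scalars])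
  exact ⟨((MulEquiv.subgroupCongr hr).symm.trans (QuotientGroup.quotientKerEquivRange f).symm).trans
    (QuotientGroup.quotientMulEquivOfEq hk)⟩

theorem centralizer_equiv_of_cong (hn : 2 ≤ n) (J : GL (Fin n) F) {ι : Type} [Fintype ι]
    [DecidableEq ι] {M : Matrix ι ι F} (h : Cong J.1 M) :
    Nonempty (↥(Cfsg.inndiagPSL n F ⊓ Subgroup.centralizer {gam J}) ≃*
      Cfsg.projQuot (simGL M)) := by
  obtain ⟨e⟩ := centralizer_equiv hn J
  obtain ⟨e'⟩ := projQuot_simGL_congr h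
  exact ⟨e.trans e'⟩

theorem split_eq (hn : 2 ≤ n) (J : GL (Fin n) F) :
    Cfsg.splitClassCount (Cfsg.inndiagPSL n F)
      (Cfsg.Inn (Matrix.ProjectiveSpecialLinearGroup (Fin n) F)) (gam J) = (simDet J.1).index := by
  haveI : (Cfsg.Inn (Matrix.ProjectiveSpecialLinearGroup (Fin n) F)).Normal := ⟨by
    rintro _ ⟨k, rfl⟩ β
    exact ⟨β k, MulEquiv.ext fun y => by
      show β k * y * (β k)⁻¹ = β (k * β⁻¹ y * k⁻¹)
      rw [map_mul, map_mul, map_inv, MulAut.apply_inv_self]⟩⟩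
  rw [splitClassCount_eq_relIndex _ _ (inndiagPSL_eq (n := n) (F := F) ▸ Inn_le_range) _,
    centralizer_eq hn]
  have hinn : Cfsg.Inn (Matrix.ProjectiveSpecialLinearGroup (Fin n) F) =
      (GeneralLinearGroup.det (n := Fin n) (R := F)).ker.map (A n F) := by
    ext β
    rw [mem_Inn_iff]
    constructor
    · rintro ⟨s, rfl⟩
      exact ⟨Matrix.SpecialLinearGroup.toGL s, MonoidHom.mem_ker.mpr (Units.ext (show s.1.det = 1 from s.2)), rfl⟩
    · rintro ⟨g, hg, rfl⟩
      have hg' : g.1.det = 1 := by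
        rw [← GeneralLinearGroup.val_det_apply, MonoidHom.mem_ker.mp hg, Units.val_one]
      exact ⟨⟨g.1, hg'⟩, congrArg _ (Units.ext rfl)⟩
  rw [hinn, inndiagPSL_eq, ← Subgroup.map_sup]
  set X := (GeneralLinearGroup.det (n := Fin n) (R := F)).ker ⊔ simGL J.1 with hX
  have h1 : (X.map (A n F)).relIndex (A n F).range = X.index := by
    rw [← Subgroup.index_comap, Subgroup.comap_map_eq_self]
    refine le_trans ?_ le_sup_right
    rw [ker_A hn, center_eq_scalars]
    exact scalars_le_simGL _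
  rw [h1, simDet]
  have h2 : X = ((simGL J.1).map GeneralLinearGroup.det).comap GeneralLinearGroup.det := by
    rw [Subgroup.comap_map_eq, hX, sup_comm]
  rw [h2, Subgroup.index_comap_of_surjective]
  intro d
  let w : Fin n → F := fun i => if i = ⟨0, by omega⟩ then (d : F) else 1
  have hw : (Matrix.diagonal w).det = d := by
    rw [Matrix.det_diagonal, Finset.prod_eq_single ⟨0, by omega⟩]
    · simp [w]
    · intro b _ hb; simp [w, hb]
    · simp
  exact ⟨GeneralLinearGroup.mkOfDetNeZero (Matrix.diagonal w) (hw.symm ▸ d.ne_zero), Units.ext hw⟩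

end Cfsg.Agent.KnownB.GraphInv
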