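import Cfsg.Agent.KnownB.GraphInv.Det
import Cfsg.Agent.KnownB.GraphInv.Common
import Cfsg.Agent.KnownB.AutPSL.Lang
import Cfsg.Agent.KnownB.AutPSL.Twist
import Cfsg.Agent.KnownB.Proj.Unit.Out

/-! Involutory graph automorphisms of `PSU_n(q)` and forms over the field with `q` elements. -/

set_option autoImplicit false
set_option maxHeartbeats 1000000

namespace Cfsg.Agent.KnownB.GraphInv

open Matrix
open Cfsg.Agent.KnownB.Proj.Unit
open Cfsg.Agent.Forms (frobQ normOne)
open Cfsg.Agent.KnownB.AutPSL (mapGL mapGL_val nrm pow_coset)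

universe u v

variable {n q : ℕ} {F : Type u} [Field F] [Fintype F] {hF : Fintype.card F = q ^ 2}

/-- The involution of `F` and the subfield it fixes. -/
structure UCtx (hF : Fintype.card F = q ^ 2) (F₀ : Type v) [Field F₀] where
  σ : F ≃+* F
  hσ : ∀ a, σ a = frobQ hF a
  j : F₀ →+* F
  hj : ∀ x, σ x = x ↔ x ∈ j.range

variable {F₀ : Type v} [Field F₀] (C : UCtx hF F₀) {ι κ : Type}
  [Fintype ι] [DecidableEq ι] [Fintype κ] [DecidableEq κ]

theorem UCtx.j_fixed (x : F₀) : C.σ (C.j x) = C.j x := (C.hj _).2 ⟨x, rfl⟩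

theorem UCtx.invol (x : F) : C.σ (C.σ x) = x := by
  rw [C.hσ, C.hσ, Forms.frobQ_frobQ]

theorem UCtx.ne_one : C.σ ≠ 1 := fun h => Forms.frobQ_ne_id hF (RingHom.ext fun x => by
  rw [← C.hσ, h]; rfl)

theorem UCtx.sq : C.σ * C.σ = 1 := RingEquiv.ext fun x => C.invol x

theorem invol_eq {σ τ : F ≃+* F} (hσ : orderOf σ = 2) (hτ : orderOf τ = 2) : σ = τ := by
  classical
  obtain ⟨p, hp⟩ := CharP.exists F
  obtain ⟨f, hpp, hcard⟩ := FiniteField.card F p
  haveI := Fact.mk hpp
  obtain ⟨e⟩ := AutPSL.exists_ringAut_equiv (F := F) (by rw [Nat.card_eq_fintype_card, hcard]) f.pos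
  haveI : NeZero (f : ℕ) := ⟨f.pos.ne'⟩
  by_contra hne
  have h2 : ∀ x : F ≃+* F, orderOf x = 2 → (e x) ^ 2 = 1 ∧ e x ≠ 1 := fun x hx =>
    ⟨by rw [← map_pow, ← hx, pow_orderOf_eq_one, map_one], fun h => by
      rw [e.injective (h.trans (map_one e).symm), orderOf_one] at hx; omega⟩
  have hsub : ({1, e σ, e τ} : Finset (Multiplicative (ZMod (f : ℕ)))) ⊆
      Finset.univ.filter (fun a => a ^ 2 = 1) := by
    intro a ha
    simp only [Finset.mem_insert, Finset.mem_singleton] at ha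
    rcases ha with rfl | rfl | rfl
    · simp
    · simp [(h2 σ hσ).1]
    · simp [(h2 τ hτ).1]
  have hc := (Finset.card_le_card hsub).trans (IsCyclic.card_pow_eq_one_le two_pos)
  rw [Finset.card_insert_of_notMem (by simp [Ne.symm (h2 σ hσ).2, Ne.symm (h2 τ hτ).2]),
    Finset.card_pair (fun h => hne (e.injective h))] at hc
  omega

theorem orderOf_frob {σ : F ≃+* F} (hσ : ∀ a, σ a = frobQ hF a) : orderOf σ = 2 := by
  haveI : Fact (Nat.Prime 2) := ⟨Nat.prime_two⟩
  refine orderOf_eq_prime (RingEquiv.ext fun a => ?_) fun h => ?_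
  · rw [pow_two]
    show σ (σ a) = a
    rw [hσ, hσ, Forms.frobQ_frobQ]
  · exact Forms.frobQ_ne_id hF (RingHom.ext fun x => by rw [← hσ, h]; rfl)

/-- The involution and a copy of its fixed field. -/
theorem exists_ctx [Fintype F₀] (hF₀ : Fintype.card F₀ = q) (hF : Fintype.card F = q ^ 2) :
    Nonempty (UCtx hF F₀) := by
  classical
  obtain ⟨p, hp⟩ := CharP.exists F₀
  obtain ⟨k, hpp, hcard⟩ := FiniteField.card F₀ p
  haveI := Fact.mk hpp
  let σ : F ≃+* F := RingEquiv.ofBijective (frobQ hF)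
    (Function.Involutive.bijective (f := frobQ hF) (Forms.frobQ_frobQ hF))
  have hσ : ∀ a, σ a = frobQ hF a := fun _ => rfl
  have hF' : Fintype.card F = p ^ (2 * (k : ℕ)) := by
    rw [hF, ← hF₀, hcard, ← pow_mul, mul_comm]
  obtain ⟨j, hj⟩ := AutPSL.exists_fixedField hF' (orderOf_frob hσ) two_pos (dvd_mul_right _ _) F₀
    (by rw [Nat.mul_div_cancel_left _ two_pos, hcard])
  exact ⟨⟨σ, hσ, j, hj⟩⟩

theorem mem_gu_iff (g : GL (Fin n) F) :
    g ∈ Cfsg.GU n F q ↔ g.1.transpose * g.1.map C.σ = 1 := by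
  have hd : ∀ u v : Fin n → F, Cfsg.hermForm n F q u v = u ⬝ᵥ (⇑C.σ ∘ v) := fun u v => by
    simp [Cfsg.hermForm, dotProduct, C.hσ]
  have key : ∀ u v : Fin n → F, Cfsg.hermForm n F q (g.1 *ᵥ u) (g.1 *ᵥ v) =
      u ⬝ᵥ ((g.1.transpose * g.1.map C.σ) *ᵥ (⇑C.σ ∘ v)) := fun u v => by
    rw [hd, ← Proj.Unit.map_mulVec, ← Matrix.mulVec_mulVec,
      Matrix.dotProduct_mulVec u g.1.transpose, Matrix.vecMul_transpose]
  have hs : ∀ k : Fin n, ⇑C.σ ∘ (Pi.single k 1) = (Pi.single k 1 : Fin n → F) := fun k => by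
    funext i; simp [Pi.single_apply, apply_ite C.σ]
  constructor
  · intro h
    refine ext_dot fun u v => ?_
    have h1 := h u (⇑C.σ ∘ v)
    change Cfsg.hermForm n F q (g.1 *ᵥ u) (g.1 *ᵥ (⇑C.σ ∘ v)) =
      Cfsg.hermForm n F q u (⇑C.σ ∘ v) at h1
    have e : ⇑C.σ ∘ (⇑C.σ ∘ v) = v := funext fun i => C.invol _
    rw [key, hd, e] at h1
    rw [h1, Matrix.one_mulVec]
  · intro h u v
    show Cfsg.hermForm n F q (g.1 *ᵥ u) (g.1 *ᵥ v) = _
    rw [key, h, Matrix.one_mulVec, hd]

/-- `σ` applied to a matrix. -/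
abbrev bar {a b : Type} (X : Matrix a b F) : Matrix a b F := X.map C.σ

theorem bar_mul {a b c : Type} [Fintype b] (X : Matrix a b F) (Y : Matrix b c F) :
    bar C (X * Y) = bar C X * bar C Y := Matrix.map_mul (f := (C.σ : F →+* F))

theorem bar_smul {a b : Type} (k : F) (X : Matrix a b F) : bar C (k • X) = C.σ k • bar C X := by
  ext i l; simp

theorem bar_bar {a b : Type} (X : Matrix a b F) : bar C (bar C X) = X := by
  ext i l; simp [C.invol]

theorem bar_j {a b : Type} (X : Matrix a b F₀) : bar C (X.map C.j) = X.map C.j := by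
  ext i l; simp [C.j_fixed]

theorem bar_transpose {a b : Type} (X : Matrix a b F) :
    bar C X.transpose = (bar C X).transpose := rfl

theorem bar_one {a : Type} [DecidableEq a] : bar C (1 : Matrix a a F) = 1 :=
  Matrix.map_one _ (map_zero _) (map_one _)

theorem exists_of_bar_fixed {a b : Type} (X : Matrix a b F) (h : bar C X = X) :
    ∃ Y : Matrix a b F₀, X = Y.map C.j := by
  choose Y hY using fun i l => (C.hj (X i l)).1 (congrFun (congrFun h i) l)
  exact ⟨Matrix.of Y, by ext i l; exact (hY i l).symm⟩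

include C in
theorem A_eq_of_smul (hn : 3 ≤ n) {g h : Cfsg.GU n F q} {k : F} (hk : h.1.1 = k • g.1.1) :
    A n q F g = A n q F h := by
  haveI : Nonempty (Fin n) := ⟨⟨0, by omega⟩⟩
  have hg := (mem_gu_iff C g.1).1 g.2
  have hh := (mem_gu_iff C h.1).1 h.2
  rw [hk] at hh
  change (k • g.1.1).transpose * bar C (k • g.1.1) = 1 at hh
  rw [bar_smul, Matrix.transpose_smul, Matrix.smul_mul, Matrix.mul_smul, hg, smul_smul] at hh
  have hkk : k * C.σ k = 1 := by
    have := congrFun (congrFun hh ⟨0, by omega⟩) ⟨0, by omega⟩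
    simpa using this
  have hk0 : k ≠ 0 := fun h0 => by rw [h0, zero_mul] at hkk; exact zero_ne_one hkk
  have e : h = g * sc n hF ⟨Units.mk0 k hk0, (Forms.mem_normOne hF).2 (by
      rw [Units.val_mk0, ← C.hσ]; exact hkk)⟩ := gu_ext (by
    rw [hk, Subgroup.coe_mul, Units.val_mul, sc_val, Units.val_mk0,
      ← Matrix.smul_one_eq_diagonal, Matrix.mul_smul, Matrix.mul_one])
  rw [e, map_mul, show A n q F (sc n hF _) = 1 from (A_eq_one_iff hF hn _).2 ⟨_, rfl⟩, mul_one]

include C in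
theorem exists_smul_of_A_eq (hn : 3 ≤ n) {g h : Cfsg.GU n F q} (he : A n q F g = A n q F h) :
    ∃ k : F, k ≠ 0 ∧ h.1.1 = k • g.1.1 := by
  obtain ⟨c, hc⟩ := (A_eq_one_iff hF hn (g⁻¹ * h)).1 (by rw [map_mul, map_inv, he, inv_mul_cancel])
  refine ⟨((c : Fˣ) : F), (c : Fˣ).ne_zero, ?_⟩
  have e : h = g * sc n hF c := by rw [hc, mul_inv_cancel_left]
  rw [e, Subgroup.coe_mul, Units.val_mul, sc_val, ← Matrix.smul_one_eq_diagonal, Matrix.mul_smul,
    Matrix.mul_one]

/-- `γ` comes from a basis in which the Hermitian form is a multiple of the rational matrix `M`. -/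
def Att (γ : MulAut (Cfsg.PSU n F q)) (M : Matrix ι ι F₀) : Prop :=
  M.det ≠ 0 ∧ ∃ (P : Matrix (Fin n) ι F) (Q : Matrix ι (Fin n) F) (g : Cfsg.GU n F q) (z l : F)
    (e : F₀), P * Q = 1 ∧ Q * P = 1 ∧ z ≠ 0 ∧ l ≠ 0 ∧ M.transpose = e • M ∧ e * e = 1 ∧
      C.σ z = C.j e * z ∧ P.transpose * bar C P = z • M.map C.j ∧
      g.1.1 = l • (P * bar C Q) ∧ γ = A n q F g * Fd n q F C.σ

theorem map_j_smul {a b : Type} (k : F₀) (X : Matrix a b F₀) :
    (k • X).map C.j = C.j k • X.map C.j := by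
  ext i l; simp

theorem Att.congr {γ : MulAut (Cfsg.PSU n F q)} {M : Matrix ι ι F₀} {M' : Matrix κ κ F₀}
    (h : Att C γ M) (hc : Cong M M') : Att C γ M' := by
  obtain ⟨hd, P, Q, g, z, l, e, h1, h2, hz, hl, hM, he, hσz, hG, hg, hγ⟩ := h
  obtain ⟨P₀, Q₀, c, k1, k2, k3⟩ := id hc
  have hd' : M'.det ≠ 0 := fun h0 => by
    obtain ⟨t, c', ht, hdet⟩ := hc.det_eq
    rw [h0, mul_zero, mul_eq_zero] at hdet
    rcases hdet with h' | h'
    · exact ht (pow_eq_zero_iff two_ne_zero |>.1 h')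
    · exact hd h'
  have hc0 : C.j (c : F₀) ≠ 0 := (map_ne_zero C.j).2 c.ne_zero
  refine ⟨hd', P * P₀.map C.j, Q₀.map C.j * Q, g, z * C.j c, l, e, ?_, ?_, mul_ne_zero hz hc0, hl,
    hc.transpose_eq hM, he, ?_, ?_, ?_, hγ⟩
  · rw [Matrix.mul_assoc, ← Matrix.mul_assoc (P₀.map C.j), ← Matrix.map_mul (f := C.j), k1,
      Matrix.map_one _ (map_zero _) (map_one _), Matrix.one_mul, h1]
  · rw [Matrix.mul_assoc, ← Matrix.mul_assoc Q, h2, Matrix.one_mul, ← Matrix.map_mul (f := C.j), k2,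
      Matrix.map_one _ (map_zero _) (map_one _)]
  · rw [map_mul, hσz, C.j_fixed, mul_assoc]
  · rw [bar_mul, bar_j, Matrix.transpose_mul]
    calc (P₀.map C.j).transpose * P.transpose * (bar C P * P₀.map C.j)
        = (P₀.map C.j).transpose * (P.transpose * bar C P) * P₀.map C.j := by
          simp only [Matrix.mul_assoc]
      _ = z • (P₀.transpose * M * P₀).map C.j := by
          rw [hG, Matrix.mul_smul, Matrix.smul_mul, Matrix.map_mul (f := C.j),
            Matrix.map_mul (f := C.j), Matrix.transpose_map]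
      _ = _ := by rw [k3, map_j_smul, smul_smul]
  · rw [hg, bar_mul, bar_j, Matrix.mul_assoc P, ← Matrix.mul_assoc (P₀.map C.j),
      ← Matrix.map_mul (f := C.j), k1, Matrix.map_one _ (map_zero _) (map_one _), Matrix.one_mul]

theorem exists_hilbert {c : F} (hc : c * C.σ c = 1) : ∃ t : F, t ≠ 0 ∧ t = c * C.σ t := by
  obtain ⟨t, ht, h⟩ := Forms.exists_div_frob hF (c := c) (by rw [← C.hσ]; exact hc)
  refine ⟨t, ht, ?_⟩
  have h0 : frobQ hF t ≠ 0 := (map_ne_zero _).2 ht
  rw [C.hσ, ← h, div_mul_cancel₀ _ h0]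

theorem exists_norm_fixed {c : F} (hc : C.σ c = c) : ∃ l : F, l * C.σ l = c := by
  obtain ⟨l, hl⟩ := KnownA.exists_norm hF c (by rw [← C.hσ]; exact hc)
  exact ⟨l, by rw [C.hσ]; exact hl⟩

omit [Fintype F] in
theorem pm_one_of_sq {K : Type*} [Field K] {e : K} (he : e * e = 1) : e = 1 ∨ e = -1 :=
  mul_self_eq_one_iff.mp he

/-- Every involutory graph automorphism is attached to a symmetric or skew matrix over `F₀`. -/
theorem exists_att (hn : 3 ≤ n) {γ : MulAut (Cfsg.PSU n F q)}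
    (hγ : Cfsg.IsGraphAutClassPSU γ) (hγ2 : orderOf γ = 2) :
    ∃ M : Matrix (Fin n) (Fin n) F₀, Att C γ M := by
  haveI : Nonempty (Fin n) := ⟨⟨0, by omega⟩⟩
  obtain ⟨-, δ, φ, σ', hev, hδ, hφ, rfl⟩ := hγ
  rw [isInnerDiagonal_iff] at hδ
  obtain ⟨g, rfl⟩ := hδ
  rw [isFieldAutOf_iff] at hφ
  subst hφ
  have hx : A n q F g * Fd n q F σ' * (A n q F g * Fd n q F σ') = 1 := by
    have h := pow_orderOf_eq_one (A n q F g * Fd n q F σ')
    rwa [hγ2, pow_two] at h
  have hx' : A n q F (g * mapGU σ' g) * Fd n q F (σ' * σ') = 1 := by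
    rw [map_mul, map_mul, ← hx, mul_assoc (A n q F g), ← mul_assoc (A n q F (mapGU σ' g)), ← Fd_A]
    simp only [mul_assoc]
  have hσ'2 : σ' * σ' = 1 := eq_one_of_A_Fd hF hn _ _ hx'
  haveI : Fact (Nat.Prime 2) := ⟨Nat.prime_two⟩
  have hσ'o : orderOf σ' = 2 := by
    refine orderOf_eq_prime (by rw [pow_two, hσ'2]) fun h => ?_
    rw [h, orderOf_one] at hev
    exact (Nat.not_even_iff_odd.mpr odd_one) hev
  have hσ' : σ' = C.σ := invol_eq hσ'o (orderOf_frob C.hσ)
  subst hσ'
  rw [C.sq, map_one, mul_one] at hx'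
  obtain ⟨cc, hcc⟩ := (A_eq_one_iff hF hn _).1 hx'
  set c : F := ((cc : Fˣ) : F) with hcdef
  have hc0 : c ≠ 0 := (cc : Fˣ).ne_zero
  have hgg : g.1.1 * bar C g.1.1 = c • (1 : Matrix (Fin n) (Fin n) F) := by
    have h := congrArg (fun x : Cfsg.GU n F q => (x.1 : Matrix (Fin n) (Fin n) F)) hcc
    rw [sc_val, ← Matrix.smul_one_eq_diagonal] at h
    exact h.symm
  have hgU : g.1.1.transpose * bar C g.1.1 = 1 := (mem_gu_iff C g.1).1 g.2
  have hbg : bar C g.1.1 = c • (g.1⁻¹).1 := by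
    have e := congrArg ((g.1⁻¹).1 * ·) hgg
    simp only [← Matrix.mul_assoc, Units.inv_mul, Matrix.one_mul, Matrix.mul_smul,
      Matrix.mul_one] at e
    exact e
  have hgT : c • g.1.1.transpose = g.1.1 := by
    have e := congrArg (· * g.1.1) hgU
    simp only [hbg, Matrix.mul_smul, Matrix.smul_mul, Matrix.one_mul] at e
    rwa [Matrix.mul_assoc, Units.inv_mul, Matrix.mul_one] at e
  have hcc2 : c * c = 1 := by
    have hg0 : g.1.1 ≠ 0 := fun h0 => by
      simpa [h0] using (GeneralLinearGroup.det g.1).ne_zero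
    have e := congrArg Matrix.transpose hgT
    rw [Matrix.transpose_smul, Matrix.transpose_transpose] at e
    have e2 : (c * c) • g.1.1 = (1 : F) • g.1.1 := by
      rw [one_smul]
      conv_rhs => rw [← hgT, ← e]
      rw [smul_smul]
    exact smul_left_injective _ hg0 e2
  have hσc : C.σ c = c := by
    rcases pm_one_of_sq hcc2 with h | h <;> rw [h] <;> simp
  obtain ⟨l, hl⟩ := exists_norm_fixed C hσc
  have hl0 : l ≠ 0 := fun h => hc0 (by rw [← hl, h, zero_mul])
  set g' : GL (Fin n) F := GeneralLinearGroup.scalar (Fin n) (Units.mk0 l hl0)⁻¹ * g.1 with hg'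
  have hg'v : g'.1 = l⁻¹ • g.1.1 := by
    rw [hg', Units.val_mul, scalar_val, Matrix.smul_mul, Matrix.one_mul, Units.val_inv_eq_inv_val,
      Units.val_mk0]
  have hnorm : g'.1 * bar C g'.1 = 1 := by
    rw [hg'v, bar_smul, Matrix.smul_mul, Matrix.mul_smul, hgg, smul_smul, smul_smul, map_inv₀,
      ← mul_inv, ← hl, inv_mul_cancel₀ (by rw [hl]; exact hc0), one_smul]
  obtain ⟨P, hP⟩ := AutPSL.lang_field (n := n) two_pos (orderOf_frob C.hσ) g' (by
    show g' * mapGL C.σ (g' * mapGL C.σ 1) = 1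
    rw [map_one, mul_one]
    exact Units.ext hnorm)
  have hPv : g'.1 = P.1 * bar C (P⁻¹).1 := by
    rw [hP, Units.val_mul, ← map_inv, mapGL_val]
  have hgv : g.1.1 = l • (P.1 * bar C (P⁻¹).1) := by
    rw [← hPv, hg'v, smul_smul, mul_inv_cancel₀ hl0, one_smul]
  set G₀ := P.1.transpose * bar C P.1 with hG₀
  have hbP : bar C P.1 = l • ((g.1⁻¹).1 * P.1) := by
    have e : g.1.1 * bar C P.1 = l • P.1 := by
      rw [hgv, Matrix.smul_mul, Matrix.mul_assoc, ← bar_mul, Units.inv_mul, bar_one,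
        Matrix.mul_one]
    have e' := congrArg ((g.1⁻¹).1 * ·) e
    simpa only [← Matrix.mul_assoc, Units.inv_mul, Matrix.one_mul, Matrix.mul_smul] using e'
  have hGT : G₀.transpose = c • G₀ := by
    have hiT : (g.1⁻¹).1.transpose = c • (g.1⁻¹).1 := by
      have h1 : (g.1⁻¹).1.transpose * g.1.1.transpose = 1 := by
        rw [← Matrix.transpose_mul, Units.mul_inv, Matrix.transpose_one]
      have h3 := congrArg (fun X => (g.1⁻¹).1.transpose * X * (g.1⁻¹).1) hgT
      simp only [Matrix.mul_smul, Matrix.smul_mul, h1, Matrix.one_mul] at h3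
      rw [Matrix.mul_assoc (g.1⁻¹).1.transpose, Units.mul_inv, Matrix.mul_one] at h3
      exact h3.symm
    rw [hG₀, hbP, Matrix.mul_smul, Matrix.transpose_smul, Matrix.transpose_mul,
      Matrix.transpose_transpose, Matrix.transpose_mul, hiT, Matrix.mul_assoc,
      Matrix.smul_mul, Matrix.mul_smul, smul_comm]
  have hGb : bar C G₀ = c • G₀ := by
    rw [← hGT, hG₀, bar_mul, bar_bar, bar_transpose, Matrix.transpose_mul,
      Matrix.transpose_transpose]
  obtain ⟨z, hz0, hz⟩ := exists_hilbert C (c := c) (by rw [hσc]; exact hcc2)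
  have hσz : C.σ z = c * z := by
    conv_rhs => rw [hz, ← mul_assoc, hcc2, one_mul]
  obtain ⟨M, hM⟩ := exists_of_bar_fixed C (z⁻¹ • G₀) (by
    rw [bar_smul, hGb, smul_smul, map_inv₀, hσz, mul_inv, mul_comm, ← mul_assoc,
      mul_inv_cancel₀ hc0, one_mul])
  have hGM : G₀ = z • M.map C.j := by
    rw [← hM, smul_smul, mul_inv_cancel₀ hz0, one_smul]
  have hG0d : G₀.det ≠ 0 := by
    rw [hG₀, Matrix.det_mul, Matrix.det_transpose]
    refine mul_ne_zero (GeneralLinearGroup.det P).ne_zero ?_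
    exact (GeneralLinearGroup.det (mapGL C.σ P)).ne_zero
  have hMd : M.det ≠ 0 := fun h0 => hG0d (by
    rw [hGM, Matrix.det_smul, show M.map C.j = C.j.mapMatrix M from rfl, ← RingHom.map_det, h0,
      map_zero, mul_zero])
  obtain ⟨e, he, hec⟩ : ∃ e : F₀, e * e = 1 ∧ C.j e = c := by
    rcases pm_one_of_sq hcc2 with h | h
    · exact ⟨1, by simp, by rw [map_one, h]⟩
    · exact ⟨-1, by simp, by rw [map_neg, map_one, h]⟩
  have hMt : M.transpose = e • M := by
    refine Matrix.map_injective C.j.injective ?_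
    show M.transpose.map C.j = (e • M).map C.j
    rw [map_j_smul, Matrix.transpose_map, ← hM, Matrix.transpose_smul, hGT, hec, smul_comm]
  exact ⟨M, hMd, P.1, (P⁻¹).1, g, z, l, e, P.mul_inv, P.inv_mul, hz0, hl0, hMt, he,
    by rw [hec, hσz], hGM, hgv, rfl⟩

omit [Fintype F] in
theorem sesq_apply (σ : F →+* F) (H : Matrix ι ι F) (x y : ι → F) :
    (Matrix.toLinearMapₛₗ₂' F σ (RingHom.id F) H) x y =
      (⇑σ ∘ x) ⬝ᵥ (H *ᵥ y) := by
  rw [Matrix.toLinearMapₛₗ₂'_apply, dotProduct]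
  simp only [RingHom.id_apply, smul_eq_mul, Matrix.mulVec, dotProduct, Finset.mul_sum,
    Function.comp_apply]
  exact Finset.sum_congr rfl fun i _ => Finset.sum_congr rfl fun k _ => by ring

/-- A frame for a matrix. -/
theorem exists_frame {n : ℕ} (M : Matrix ι ι F₀) (hd : M.det ≠ 0) (hn : Fintype.card ι = n) {e : F₀}
    (he : e * e = 1) (hM : M.transpose = e • M) :
    ∃ (P : Matrix (Fin n) ι F) (Q : Matrix ι (Fin n) F) (z : F), P * Q = 1 ∧ Q * P = 1 ∧ z ≠ 0 ∧
      C.σ z = C.j e * z ∧ P.transpose * bar C P = z • M.map C.j := by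
  classical
  obtain ⟨z, hz0, hz⟩ := exists_hilbert C (c := C.j e) (by rw [C.j_fixed, ← map_mul, he, map_one])
  have hσz : C.σ z = C.j e * z := by
    conv_rhs => rw [hz, ← mul_assoc, ← map_mul, he, map_one, one_mul]
  -- the Hermitian form with matrix `z • M`, transposed
  set H := (z • M.map C.j).transpose with hH
  have hHd : H.det ≠ 0 := by
    rw [hH, Matrix.det_transpose, Matrix.det_smul, show M.map C.j = C.j.mapMatrix M from rfl,
      ← RingHom.map_det]
    exact mul_ne_zero (pow_ne_zero _ hz0) ((map_ne_zero _).2 hd)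
  have hHh : bar C H = H.transpose := by
    rw [hH, Matrix.transpose_transpose, bar_transpose, bar_smul, bar_j, Matrix.transpose_smul,
      ← Matrix.transpose_map, hM, map_j_smul, smul_smul, hσz, mul_comm (C.j e), mul_assoc,
      ← map_mul, he, map_one, mul_one]
  set σr : F →+* F := frobQ hF with hσr
  set B := Matrix.toLinearMapₛₗ₂' F σr (RingHom.id F) H with hB
  have hBap : ∀ x y, B x y = (⇑C.σ ∘ x) ⬝ᵥ (H *ᵥ y) := fun x y => by
    rw [hB, sesq_apply, show (⇑σr ∘ x) = ⇑C.σ ∘ x from funext fun i => (C.hσ _).symm]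
  have hS : B.IsSymm := ⟨fun x y => by
    show σr (B x y) = B y x
    rw [← C.hσ, hBap, hBap]
    have e1 : C.σ ((⇑C.σ ∘ x) ⬝ᵥ (H *ᵥ y)) = x ⬝ᵥ (bar C H *ᵥ (⇑C.σ ∘ y)) := by
      rw [show (bar C H *ᵥ (⇑C.σ ∘ y)) = ⇑C.σ ∘ (H *ᵥ y) by
        funext i; simp [Matrix.mulVec, dotProduct, map_sum]]
      simp [dotProduct, map_sum, C.invol]
    rw [e1, hHh, Matrix.dotProduct_mulVec, Matrix.vecMul_transpose, dotProduct_comm]⟩
  have hNd : B.Nondegenerate := by
    refine ⟨fun x hx => ?_, fun y hy => ?_⟩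
    · have h : Matrix.vecMul (⇑C.σ ∘ x) H = 0 := by
        funext k
        have := hx (Pi.single k 1)
        rw [hBap, Matrix.dotProduct_mulVec, dotProduct_single, mul_one] at this
        exact this
      have h' : (⇑C.σ ∘ x) = 0 := Matrix.eq_zero_of_vecMul_eq_zero hHd h
      funext i
      exact (map_eq_zero C.σ).1 (congrFun h' i)
    · have h : H *ᵥ y = 0 := by
        funext k
        have := hy (Pi.single k 1)
        rw [hBap, show (⇑C.σ ∘ Pi.single k (1 : F)) = Pi.single k 1 by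
          funext i; simp [Pi.single_apply, apply_ite C.σ], single_dotProduct, one_mul] at this
        exact this
      exact Matrix.eq_zero_of_mulVec_eq_zero hHd h
  obtain ⟨q', hq', hherm⟩ := Forms.isHerm_of_involution (Forms.frobQ_ne_id hF)
    (Forms.frobQ_frobQ hF) hS hNd
  obtain ⟨b, hb⟩ := hherm.exists_orthonormal hq'
  have hdim : Module.finrank F (ι → F) = n := by simp [hn]
  let b' : Module.Basis (Fin n) F (ι → F) := b.reindex (finCongr hdim)
  set T : Matrix ι (Fin n) F := Matrix.of fun i k => b' k i with hT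
  set T' : Matrix (Fin n) ι F := b'.toMatrix (Pi.basisFun F ι) with hT'
  have hT0 : (Pi.basisFun F ι).toMatrix b' = T := by
    ext i k; simp [Module.Basis.toMatrix_apply, hT]
  have hTT : T * T' = 1 := by
    rw [hT', ← hT0, Module.Basis.toMatrix_mul_toMatrix_flip]
  have hTT' : T' * T = 1 := by
    rw [hT', ← hT0, Module.Basis.toMatrix_mul_toMatrix_flip]
  have hgram : (bar C T).transpose * H * T = 1 := by
    ext a c
    have h := hb ((finCongr hdim).symm a) ((finCongr hdim).symm c)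
    rw [show b ((finCongr hdim).symm a) = b' a by simp [b'],
      show b ((finCongr hdim).symm c) = b' c by simp [b'], hBap] at h
    rw [Matrix.mul_assoc, Matrix.mul_apply, Matrix.one_apply]
    simp only [Matrix.transpose_apply, Matrix.mul_apply]
    refine Eq.trans ?_ (h.trans (by simp [(finCongr hdim).symm.injective.eq_iff]))
    simp [dotProduct, Matrix.mulVec, hT]
  refine ⟨T', T, z, hTT', hTT, hz0, hσz, ?_⟩
  have hH' : H = (bar C T').transpose * T' := by
    calc H = ((bar C T * bar C T').transpose * H) * (T * T') := by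
          rw [← bar_mul, hTT, bar_one, Matrix.transpose_one, Matrix.one_mul, Matrix.mul_one]
      _ = (bar C T').transpose * ((bar C T).transpose * H * T) * T' := by
          rw [Matrix.transpose_mul]; simp only [Matrix.mul_assoc]
      _ = _ := by rw [hgram, Matrix.mul_one]
  rw [← Matrix.transpose_transpose (z • M.map C.j), ← hH, hH', Matrix.transpose_mul,
    Matrix.transpose_transpose]

/-- Existence of automorphisms attached to a given matrix. -/
theorem exists_of_matrix (hn : 3 ≤ n) (M : Matrix ι ι F₀) (hd : M.det ≠ 0)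
    (hcard : Fintype.card ι = n) (hM : M.transpose = M ∨ M.transpose = -M) :
    ∃ γ : MulAut (Cfsg.PSU n F q), Cfsg.IsGraphAutClassPSU γ ∧ orderOf γ = 2 ∧ Att C γ M := by
  obtain ⟨e, he, hMe⟩ : ∃ e : F₀, e * e = 1 ∧ M.transpose = e • M := by
    rcases hM with h | h
    · exact ⟨1, by simp, by rw [one_smul, h]⟩
    · exact ⟨-1, by simp, by rw [neg_one_smul, h]⟩
  obtain ⟨P, Q, z, h1, h2, hz, hσz, hG⟩ := exists_frame C (n := n) M hd hcard he hMe
  obtain ⟨l, hl⟩ := exists_norm_fixed C (c := C.j e) (C.j_fixed e)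
  have hje : C.j e ≠ 0 := by
    refine (map_ne_zero _).2 fun h => ?_
    rw [h, zero_mul] at he; exact zero_ne_one he
  have hl0 : l ≠ 0 := fun h => hje (by rw [← hl, h, zero_mul])
  set g₀ := l • (P * bar C Q) with hg₀
  have hbP : bar C Q * bar C P = 1 := by rw [← bar_mul, h2, bar_one]
  have hgU : g₀.transpose * bar C g₀ = 1 := by
    have hMP : M.map C.j = (C.σ z)⁻¹ • ((bar C P).transpose * P) := by
      have e1 := congrArg (bar C) hG
      rw [bar_mul, bar_bar, bar_transpose, bar_smul, bar_j] at e1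
      rw [e1, smul_smul, inv_mul_cancel₀ ((map_ne_zero _).2 hz), one_smul]
    have hone : (bar C Q).transpose * (bar C P).transpose = 1 := by
      rw [← Matrix.transpose_mul, ← bar_mul, h1, bar_one, Matrix.transpose_one]
    rw [hg₀, bar_smul, bar_mul, bar_bar, Matrix.transpose_smul, Matrix.smul_mul, Matrix.mul_smul,
      Matrix.transpose_mul, Matrix.mul_assoc, ← Matrix.mul_assoc P.transpose, hG, Matrix.smul_mul,
      Matrix.mul_smul, hMP, Matrix.smul_mul, Matrix.mul_smul, Matrix.mul_assoc _ P Q, h1,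
      Matrix.mul_one, hone, smul_smul, smul_smul, smul_smul, hl, hσz, mul_inv, mul_assoc,
      mul_left_comm z, mul_inv_cancel₀ hz, mul_one, mul_inv_cancel₀ hje, one_smul]
  have hinv : IsUnit g₀.det := by
    have h := congrArg Matrix.det hgU
    rw [Matrix.det_mul, Matrix.det_transpose, Matrix.det_one] at h
    exact IsUnit.of_mul_eq_one _ h
  set G : GL (Fin n) F := Matrix.GeneralLinearGroup.mkOfDetNeZero g₀ hinv.ne_zero with hGdef
  have hGv : G.1 = g₀ := rfl
  have hmem : G ∈ Cfsg.GU n F q := (mem_gu_iff C G).2 hgU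
  set g : Cfsg.GU n F q := ⟨G, hmem⟩ with hgd
  haveI : Fact (Nat.Prime 2) := ⟨Nat.prime_two⟩
  refine ⟨A n q F g * Fd n q F C.σ, ⟨hn, _, _, C.σ, ?_, (isInnerDiagonal_iff _).2 ⟨g, rfl⟩,
    (isFieldAutOf_iff _ _).2 rfl, rfl⟩, orderOf_eq_prime ?_ fun h => ?_,
    hd, P, Q, g, z, l, e, h1, h2, hz, hl0, hMe, he, hσz, hG, rfl, rfl⟩
  · rw [orderOf_frob C.hσ]; exact even_two
  · rw [pow_two, mul_assoc, ← mul_assoc (Fd n q F C.σ), Fd_A, mul_assoc, ← map_mul, C.sq,
      map_one, mul_one, ← map_mul]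
    have hk : (g * mapGU C.σ g).1.1 = C.j e • (1 : Cfsg.GU n F q).1.1 := by
      show g₀ * bar C g₀ = C.j e • (1 : Matrix (Fin n) (Fin n) F)
      rw [hg₀, bar_smul, bar_mul, bar_bar, Matrix.smul_mul, Matrix.mul_smul, smul_smul, hl,
        Matrix.mul_assoc, ← Matrix.mul_assoc (bar C Q), hbP, Matrix.one_mul, h1]
    rw [← A_eq_of_smul C hn hk, map_one]
  · exact C.ne_one (eq_one_of_A_Fd hF hn g C.σ h)

/-- The matrix form of a conjugation between attached automorphisms. -/
theorem conj_key (hn : 3 ≤ n) {M : Matrix ι ι F₀} {M' : Matrix κ κ F₀}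
    {P : Matrix (Fin n) ι F} {Q : Matrix ι (Fin n) F} {g : Cfsg.GU n F q} {z l : F}
    {P' : Matrix (Fin n) κ F} {Q' : Matrix κ (Fin n) F} {g' : Cfsg.GU n F q} {z' l' : F}
    (h1 : P * Q = 1) (h2 : Q * P = 1) (h1' : P' * Q' = 1) (h2' : Q' * P' = 1)
    (hl : l ≠ 0) (hl' : l' ≠ 0) (hz' : z' ≠ 0) (hM0 : M ≠ 0)
    (hG : P.transpose * bar C P = z • M.map C.j)
    (hG' : P'.transpose * bar C P' = z' • M'.map C.j)
    (hg : g.1.1 = l • (P * bar C Q)) (hg' : g'.1.1 = l' • (P' * bar C Q')) (a : Cfsg.GU n F q) :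
    A n q F a * (A n q F g * Fd n q F C.σ) * (A n q F a)⁻¹ = A n q F g' * Fd n q F C.σ ↔
      ∃ (w : F) (B : Matrix κ ι F₀) (B' : Matrix ι κ F₀) (u : F₀ˣ), w ≠ 0 ∧
        a.1.1 * P = w • (P' * B.map C.j) ∧ B * B' = 1 ∧ B' * B = 1 ∧
        B.transpose * M' * B = (u : F₀) • M ∧ w * C.σ w * z' * C.j u = z := by
  classical
  have e0 : A n q F a * (A n q F g * Fd n q F C.σ) * (A n q F a)⁻¹ =
      A n q F (a * g * (mapGU C.σ a)⁻¹) * Fd n q F C.σ := by
    rw [← map_inv]
    calc A n q F a * (A n q F g * Fd n q F C.σ) * A n q F a⁻¹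
        = A n q F a * A n q F g * (Fd n q F C.σ * A n q F a⁻¹) := by simp only [mul_assoc]
      _ = _ := by rw [Fd_A, map_inv, map_inv, map_mul, map_mul, map_inv]; simp only [mul_assoc]
  rw [e0, mul_left_inj]
  have hav : ((a * g * (mapGU C.σ a)⁻¹ : Cfsg.GU n F q)).1.1 =
      l • ((a.1.1 * P) * bar C (Q * (a.1⁻¹).1)) := by
    show a.1.1 * g.1.1 * bar C (a.1⁻¹).1 = _
    rw [hg, Matrix.mul_smul, Matrix.smul_mul, bar_mul]
    simp only [Matrix.mul_assoc]
  have haP : bar C (Q * (a.1⁻¹).1) * bar C (a.1.1 * P) = 1 := by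
    rw [← bar_mul, Matrix.mul_assoc, ← Matrix.mul_assoc (a.1⁻¹).1, Units.inv_mul, Matrix.one_mul,
      h2, bar_one]
  constructor
  · intro h
    obtain ⟨k, hk0, hk⟩ := exists_smul_of_A_eq C hn h
    rw [hav, hg', smul_smul] at hk
    -- `B := Q' a P` satisfies `B = r • bar B`
    set r := k * l / l' with hr
    have hr0 : r ≠ 0 := div_ne_zero (mul_ne_zero hk0 hl) hl'
    have hk2 : P' * bar C Q' = r • ((a.1.1 * P) * bar C (Q * (a.1⁻¹).1)) := by
      have e1 := congrArg (l'⁻¹ • ·) hk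
      simp only [smul_smul, inv_mul_cancel₀ hl', one_smul] at e1
      rw [e1, hr, div_eq_inv_mul]
    set B₁ := Q' * (a.1.1 * P) with hB₁
    have hB : bar C B₁ = r • B₁ := by
      have e1 := congrArg (fun X => Q' * X * bar C (a.1.1 * P)) hk2
      simp only [Matrix.mul_smul, Matrix.smul_mul] at e1
      rw [← Matrix.mul_assoc Q' P', h2', Matrix.one_mul, ← bar_mul, Matrix.mul_assoc Q',
        Matrix.mul_assoc (a.1.1 * P), haP, Matrix.mul_one] at e1
      exact e1
    obtain ⟨i, jj, hne⟩ : ∃ i jj, B₁ i jj ≠ 0 := by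
      by_contra hc
      push Not at hc
      have h0 : B₁ = 0 := Matrix.ext hc
      have hPz : a.1.1 * P = 0 := by
        rw [← Matrix.one_mul (a.1.1 * P), ← h1', Matrix.mul_assoc, ← hB₁, h0, Matrix.mul_zero]
      have hP0 : P = 0 := by
        rw [← Matrix.one_mul P, ← Units.inv_mul a.1, Matrix.mul_assoc, hPz, Matrix.mul_zero]
      exact hM0 (by
        have h3 : (1 : Matrix ι ι F) = 0 := by rw [← h2, hP0, Matrix.mul_zero]
        ext x y
        have := congrFun (congrFun h3 x) x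
        simp at this)
    set w := B₁ i jj with hw
    have hσw : C.σ w = r * w := congrFun (congrFun hB i) jj
    obtain ⟨B, hBj⟩ := exists_of_bar_fixed C (w⁻¹ • B₁) (by
      rw [bar_smul, hB, smul_smul, map_inv₀, hσw, mul_inv, mul_comm, ← mul_assoc,
        mul_inv_cancel₀ hr0, one_mul])
    have hB1 : B₁ = w • B.map C.j := by
      rw [← hBj, smul_smul, mul_inv_cancel₀ hne, one_smul]
    set B₂ := Q * (a.1⁻¹).1 * P' with hB₂
    have h12 : B₁ * B₂ = 1 := by
      rw [hB₁, hB₂]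
      calc Q' * (a.1.1 * P) * (Q * (a.1⁻¹).1 * P')
          = Q' * (a.1.1 * (P * Q) * (a.1⁻¹).1) * P' := by simp only [Matrix.mul_assoc]
        _ = 1 := by rw [h1, Matrix.mul_one, Units.mul_inv, Matrix.mul_one, h2']
    have h21 : B₂ * B₁ = 1 := by
      rw [hB₁, hB₂]
      calc Q * (a.1⁻¹).1 * P' * (Q' * (a.1.1 * P))
          = Q * ((a.1⁻¹).1 * (P' * Q') * a.1.1) * P := by simp only [Matrix.mul_assoc]
        _ = 1 := by rw [h1', Matrix.mul_one, Units.inv_mul, Matrix.mul_one, h2]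
    have hb2 : bar C B₂ = r⁻¹ • B₂ := by
      have e1 := congrArg (bar C) h12
      rw [bar_mul, hB, bar_one, Matrix.smul_mul] at e1
      have e2 := congrArg (fun X => r⁻¹ • (B₂ * X)) e1
      simp only [Matrix.mul_smul, smul_smul, inv_mul_cancel₀ hr0, one_smul,
        ← Matrix.mul_assoc, h21, Matrix.one_mul, Matrix.mul_one] at e2
      exact e2
    obtain ⟨B', hB'j⟩ := exists_of_bar_fixed C (w • B₂) (by
      rw [bar_smul, hb2, smul_smul, hσw, mul_comm r, mul_assoc, mul_inv_cancel₀ hr0, mul_one])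
    have hBB : B * B' = 1 := Matrix.map_injective C.j.injective (by
      show (B * B').map C.j = (1 : Matrix κ κ F₀).map C.j
      rw [Matrix.map_mul, Matrix.map_one _ (map_zero _) (map_one _), ← hBj, ← hB'j,
        Matrix.smul_mul, Matrix.mul_smul, smul_smul, inv_mul_cancel₀ hne, one_smul, h12])
    have hBB' : B' * B = 1 := Matrix.map_injective C.j.injective (by
      show (B' * B).map C.j = (1 : Matrix ι ι F₀).map C.j
      rw [Matrix.map_mul, Matrix.map_one _ (map_zero _) (map_one _), ← hBj, ← hB'j,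
        Matrix.smul_mul, Matrix.mul_smul, smul_smul, mul_inv_cancel₀ hne, one_smul, h21])
    have haP' : a.1.1 * P = w • (P' * B.map C.j) := by
      rw [← Matrix.mul_smul, ← hB1, hB₁, ← Matrix.mul_assoc, h1', Matrix.one_mul]
    -- the forms
    have hgr : (w * C.σ w * z') • (B.transpose * M' * B).map C.j = z • M.map C.j := by
      have e1 : (a.1.1 * P).transpose * bar C (a.1.1 * P) = z • M.map C.j := by
        rw [← hG, bar_mul, Matrix.transpose_mul]
        calc P.transpose * a.1.1.transpose * (bar C a.1.1 * bar C P)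
            = P.transpose * (a.1.1.transpose * bar C a.1.1) * bar C P := by
              simp only [Matrix.mul_assoc]
          _ = _ := by rw [(mem_gu_iff C a.1).1 a.2, Matrix.mul_one]
      rw [← e1, haP', bar_smul, bar_mul, bar_j, Matrix.transpose_smul, Matrix.transpose_mul,
        Matrix.smul_mul, Matrix.mul_smul, smul_smul, ← smul_smul (w * C.σ w)]
      congr 1
      rw [Matrix.map_mul (f := C.j), Matrix.map_mul (f := C.j), Matrix.transpose_map,
        ← Matrix.smul_mul, ← Matrix.mul_smul, ← hG']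
      simp only [Matrix.mul_assoc]
    obtain ⟨x, y, hxy⟩ : ∃ x y, M x y ≠ 0 := by
      by_contra hc
      push Not at hc
      exact hM0 (Matrix.ext hc)
    set u₀ := (B.transpose * M' * B) x y / M x y with hu₀
    have hk0' : w * C.σ w * z' ≠ 0 :=
      mul_ne_zero (mul_ne_zero hne ((map_ne_zero _).2 hne)) hz'
    have hu : w * C.σ w * z' * C.j u₀ = z := by
      have e1 := congrFun (congrFun hgr x) y
      simp only [Matrix.smul_apply, Matrix.map_apply, smul_eq_mul] at e1
      rw [hu₀, map_div₀, ← mul_div_assoc, e1, mul_div_assoc, div_self ((map_ne_zero _).2 hxy),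
        mul_one]
    have hrel : B.transpose * M' * B = u₀ • M := Matrix.map_injective C.j.injective (by
      show (B.transpose * M' * B).map C.j = (u₀ • M).map C.j
      refine smul_right_injective _ hk0' ?_
      show (w * C.σ w * z') • _ = (w * C.σ w * z') • _
      rw [hgr, map_j_smul, smul_smul, hu])
    have hu0 : u₀ ≠ 0 := by
      intro h0
      rw [h0, zero_smul] at hrel
      have hM' : M' = 0 := by
        calc M' = (B * B').transpose * M' * (B * B') := by simp [hBB]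
          _ = B'.transpose * (B.transpose * M' * B) * B' := by
              simp only [Matrix.transpose_mul, Matrix.mul_assoc]
          _ = 0 := by simp [hrel]
      have hz0 : z • M.map C.j = 0 := by rw [← hu, h0, map_zero, mul_zero, zero_smul]
      -- then the Gram matrix of a basis would vanish
      rw [hz0] at hG
      have : (bar C P) * (bar C Q) = 1 := by rw [← bar_mul, h1, bar_one]
      have hP0 : P.transpose = 0 := by
        rw [← Matrix.mul_one P.transpose, ← this, ← Matrix.mul_assoc, hG, Matrix.zero_mul]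
      have h3 : (1 : Matrix ι ι F) = 0 := by
        rw [← h2, Matrix.transpose_eq_zero.mp hP0, Matrix.mul_zero]
      have := congrFun (congrFun h3 x) x
      simp at this
    exact ⟨w, B, B', Units.mk0 u₀ hu0, hne, haP', hBB, hBB', hrel, hu⟩
  · rintro ⟨w, B, B', u, hw, haP', hBB, hBB', -, -⟩
    have hQa : Q * (a.1⁻¹).1 = w⁻¹ • (B'.map C.j * Q') := by
      have e1 : (w⁻¹ • (B'.map C.j * Q')) * (a.1.1 * P) = 1 := by
        rw [haP', Matrix.smul_mul, Matrix.mul_smul, smul_smul, inv_mul_cancel₀ hw, one_smul,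
          Matrix.mul_assoc, ← Matrix.mul_assoc Q', h2', Matrix.one_mul, ← Matrix.map_mul (f := C.j),
          hBB', Matrix.map_one _ (map_zero _) (map_one _)]
      calc Q * (a.1⁻¹).1
          = (w⁻¹ • (B'.map C.j * Q')) * (a.1.1 * P) * (Q * (a.1⁻¹).1) := by
            rw [e1, Matrix.one_mul]
        _ = (w⁻¹ • (B'.map C.j * Q')) * (a.1.1 * (P * Q) * (a.1⁻¹).1) := by
            simp only [Matrix.mul_assoc]
        _ = _ := by rw [h1, Matrix.mul_one, Units.mul_inv, Matrix.mul_one]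
    refine A_eq_of_smul C hn (k := l' / (l * (w * (C.σ w)⁻¹))) ?_
    have hw' : C.σ w ≠ 0 := (map_ne_zero _).2 hw
    rw [hg', hav, hQa, haP', bar_smul, map_inv₀, bar_mul, bar_j, Matrix.smul_mul, Matrix.mul_smul,
      smul_smul, smul_smul, smul_smul, Matrix.mul_assoc P', ← Matrix.mul_assoc (B.map C.j),
      ← Matrix.map_mul (f := C.j), hBB, Matrix.map_one _ (map_zero _) (map_one _), Matrix.one_mul]
    congr 1
    field_simp

end Cfsg.Agent.KnownB.GraphInv
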