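import Cfsg.Agent.KnownB.GraphInv.PSU

/-! Classes, centralisers and splitting of involutory graph automorphisms of `PSU_n(q)`. -/

set_option autoImplicit false
set_option maxHeartbeats 1000000

namespace Cfsg.Agent.KnownB.GraphInv

open Matrix
open Cfsg.Agent.KnownB.Proj.Unit
open Cfsg.Agent.Forms (frobQ normOne)

universe u v

variable {n q : ℕ} {F : Type u} [Field F] [Fintype F] {hF : Fintype.card F = q ^ 2}
variable {F₀ : Type v} [Field F₀] {C : UCtx hF F₀} {ι κ : Type}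
  [Fintype ι] [DecidableEq ι] [Fintype κ] [DecidableEq κ]

theorem Att.ne_zero (hn : 3 ≤ n) {γ : MulAut (Cfsg.PSU n F q)} {M : Matrix ι ι F₀}
    (h : Att C γ M) : M ≠ 0 := by
  obtain ⟨hd, P, Q, g, z, l, e, h1, h2, -⟩ := h
  intro h0
  subst h0
  rcases isEmpty_or_nonempty ι with hι | hι
  · have : (1 : Matrix (Fin n) (Fin n) F) = 0 := by
      rw [← h1]; ext i k; simp [Matrix.mul_apply]
    have := congrFun (congrFun this ⟨0, by omega⟩) ⟨0, by omega⟩
    simp at this
  · exact hd (by simp)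

theorem Att.card_eq {γ : MulAut (Cfsg.PSU n F q)} {M : Matrix ι ι F₀} (h : Att C γ M) :
    Fintype.card ι = n := by
  obtain ⟨-, P, Q, g, z, l, e, h1, h2, -⟩ := h
  have hc : Cong (1 : Matrix (Fin n) (Fin n) F) (P.transpose * P) :=
    ⟨P, Q, 1, h1, h2, by rw [Matrix.mul_one, Units.val_one, one_smul]⟩
  simpa using hc.card_eq.symm

theorem Att.symm_or_skew {γ : MulAut (Cfsg.PSU n F q)} {M : Matrix ι ι F₀} (h : Att C γ M) :
    M.transpose = M ∨ M.transpose = -M := by
  obtain ⟨-, P, Q, g, z, l, e, -, -, -, -, hM, he, -⟩ := h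
  rcases pm_one_of_sq he with rfl | rfl
  · exact Or.inl (by rw [hM, one_smul])
  · exact Or.inr (by rw [hM, neg_one_smul])

theorem exists_commuting (hn : 3 ≤ n) {M : Matrix ι ι F₀} {M' : Matrix κ κ F₀}
    {P : Matrix (Fin n) ι F} {Q : Matrix ι (Fin n) F} {z : F}
    {P' : Matrix (Fin n) κ F} {Q' : Matrix κ (Fin n) F} {z' : F}
    (h1 : P * Q = 1) (h2 : Q * P = 1) (h1' : P' * Q' = 1) (h2' : Q' * P' = 1)
    (hG : P.transpose * bar C P = z • M.map C.j)
    (hG' : P'.transpose * bar C P' = z' • M'.map C.j)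
    {w : F} {B : Matrix κ ι F₀} {B' : Matrix ι κ F₀} (hw : w ≠ 0) (hBB : B * B' = 1)
    (hBB' : B' * B = 1) {u : F₀ˣ} (hrel : B.transpose * M' * B = (u : F₀) • M)
    (hu : w * C.σ w * z' * C.j u = z) :
    ∃ a : Cfsg.GU n F q, a.1.1 * P = w • (P' * B.map C.j) := by
  have hj1 : ∀ {a : Type} [DecidableEq a], (1 : Matrix a a F₀).map C.j = 1 :=
    Matrix.map_one _ (map_zero _) (map_one _)
  set X : Matrix (Fin n) (Fin n) F := w • (P' * B.map C.j * Q) with hX
  set Y : Matrix (Fin n) (Fin n) F := w⁻¹ • (P * B'.map C.j * Q') with hY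
  have hXY : X * Y = 1 := by
    rw [hX, hY, Matrix.smul_mul, Matrix.mul_smul, smul_smul, mul_inv_cancel₀ hw, one_smul]
    calc P' * B.map C.j * Q * (P * B'.map C.j * Q')
        = P' * (B.map C.j * (Q * P) * B'.map C.j) * Q' := by simp only [Matrix.mul_assoc]
      _ = 1 := by
          rw [h2, Matrix.mul_one, ← Matrix.map_mul (f := C.j), hBB, hj1, Matrix.mul_one, h1']
  have hYX : Y * X = 1 := by
    rw [hX, hY, Matrix.smul_mul, Matrix.mul_smul, smul_smul, inv_mul_cancel₀ hw, one_smul]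
    calc P * B'.map C.j * Q' * (P' * B.map C.j * Q)
        = P * (B'.map C.j * (Q' * P') * B.map C.j) * Q := by simp only [Matrix.mul_assoc]
      _ = 1 := by
          rw [h2', Matrix.mul_one, ← Matrix.map_mul (f := C.j), hBB', hj1, Matrix.mul_one, h1]
  have hU : X.transpose * bar C X = 1 := by
    rw [hX, bar_smul, Matrix.transpose_smul, Matrix.smul_mul, Matrix.mul_smul, smul_smul, bar_mul,
      bar_mul, bar_j, Matrix.transpose_mul, Matrix.transpose_mul]
    calc (w * C.σ w) • (Q.transpose * ((B.map C.j).transpose * P'.transpose) *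
            (bar C P' * B.map C.j * bar C Q))
        = (w * C.σ w) • (Q.transpose * ((B.map C.j).transpose * (P'.transpose * bar C P') *
            B.map C.j) * bar C Q) := by simp only [Matrix.mul_assoc]
      _ = (w * C.σ w * z') • (Q.transpose * (B.transpose * M' * B).map C.j * bar C Q) := by
          rw [hG', Matrix.mul_smul, Matrix.smul_mul, Matrix.map_mul (f := C.j),
            Matrix.map_mul (f := C.j), Matrix.transpose_map, Matrix.mul_smul, Matrix.smul_mul,
            smul_smul]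
      _ = Q.transpose * (z • M.map C.j) * bar C Q := by
          rw [hrel, map_j_smul, Matrix.mul_smul, Matrix.smul_mul, smul_smul, hu, Matrix.mul_smul,
            Matrix.smul_mul]
      _ = (P * Q).transpose * bar C (P * Q) := by
          rw [← hG, bar_mul, Matrix.transpose_mul]; simp only [Matrix.mul_assoc]
      _ = 1 := by rw [h1, bar_one, Matrix.transpose_one, Matrix.mul_one]
  refine ⟨⟨⟨X, Y, hXY, hYX⟩, (mem_gu_iff C _).2 hU⟩, ?_⟩
  show X * P = _
  rw [hX, Matrix.smul_mul, Matrix.mul_assoc, h2, Matrix.mul_one]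

theorem conj_iff_att (hn : 3 ≤ n) {γ γ' : MulAut (Cfsg.PSU n F q)} {M : Matrix ι ι F₀}
    {M' : Matrix κ κ F₀} (h : Att C γ M) (h' : Att C γ' M') :
    Cfsg.IsConjUnder (Cfsg.inndiagPSU n F q) γ γ' ↔ Cong M M' := by
  have hM0 := h.ne_zero hn
  obtain ⟨hd, P, Q, g, z, l, e, h1, h2, hz, hl, hM, he, hσz, hG, hg, rfl⟩ := h
  obtain ⟨hd', P', Q', g', z', l', e', h1', h2', hz', hl', hM', he', hσz', hG', hg', rfl⟩ := h'
  rw [inndiagPSU_eq]
  constructor
  · rintro ⟨_, ⟨a, rfl⟩, hconj⟩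
    obtain ⟨w, B, B', u, hw, -, hBB, hBB', hrel, -⟩ :=
      (conj_key C hn h1 h2 h1' h2' hl hl' hz' hM0 hG hG' hg hg' a).1 hconj.symm
    exact Cong.symm ⟨B, B', u, hBB, hBB', hrel⟩
  · intro hc
    have hee : e' = e := by
      have h3 := hc.transpose_eq hM
      rw [hM'] at h3
      have hM'0 : M' ≠ 0 := fun h0 => hM0 (by
        obtain ⟨X, Y, c, k1, k2, k3⟩ := hc.symm
        rw [h0] at k3
        simpa using k3.symm)
      exact smul_left_injective _ hM'0 h3
    obtain ⟨B, B', u, hBB, hBB', hrel⟩ := hc.symm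
    have hju : C.j (u : F₀) ≠ 0 := (map_ne_zero _).2 u.ne_zero
    have hje : C.j e ≠ 0 := by
      intro h0
      rw [map_eq_zero] at h0
      rw [h0, zero_mul] at he; exact zero_ne_one he
    obtain ⟨w, hw⟩ := exists_norm_fixed C (c := z / (z' * C.j u)) (by
      rw [map_div₀, map_mul, hσz, hσz', hee, C.j_fixed, mul_assoc, mul_div_mul_left _ _ hje])
    have hw0 : w ≠ 0 := fun h0 => by
      rw [h0, zero_mul, eq_comm, div_eq_zero_iff] at hw
      rcases hw with h' | h'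
      · exact hz h'
      · exact mul_ne_zero hz' hju h'
    have hu : w * C.σ w * z' * C.j u = z := by
      rw [hw, mul_assoc, div_mul_cancel₀ _ (mul_ne_zero hz' hju)]
    obtain ⟨a, ha⟩ := exists_commuting hn h1 h2 h1' h2' hG hG' hw0 hBB hBB' hrel hu
    exact ⟨_, ⟨a, rfl⟩, ((conj_key C hn h1 h2 h1' h2' hl hl' hz' hM0 hG hG' hg hg' a).2
      ⟨w, B, B', u, hw0, ha, hBB, hBB', hrel, hu⟩).symm⟩

/-- The unitary matrices commuting with `γ`. -/
def stab (γ : MulAut (Cfsg.PSU n F q)) : Subgroup (Cfsg.GU n F q) :=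
  (Subgroup.centralizer {γ}).comap (A n q F)

theorem centralizer_eq_stab (γ : MulAut (Cfsg.PSU n F q)) :
    Cfsg.inndiagPSU n F q ⊓ Subgroup.centralizer {γ} = (stab γ).map (A n q F) := by
  rw [inndiagPSU_eq, stab, Subgroup.map_comap_eq]

/-- The representation of `stab γ` in the similitudes of `M`. -/
theorem exists_rep (hn : 3 ≤ n) {γ : MulAut (Cfsg.PSU n F q)} {M : Matrix ι ι F₀}
    (h : Att C γ M) :
    ∃ (P : Matrix (Fin n) ι F) (Q : Matrix ι (Fin n) F), P * Q = 1 ∧ Q * P = 1 ∧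
      (∀ a : Cfsg.GU n F q, a ∈ stab γ ↔ ∃ (w : F) (b : GL ι F₀) (u : F₀ˣ), w ≠ 0 ∧
        a.1.1 * P = w • (P * b.1.map C.j) ∧ b.1.transpose * M * b.1 = (u : F₀) • M ∧
        w * C.σ w * C.j u = 1) ∧
      (∀ (w : F) (b : GL ι F₀) (u : F₀ˣ), w ≠ 0 → b.1.transpose * M * b.1 = (u : F₀) • M →
        w * C.σ w * C.j u = 1 → ∃ a : Cfsg.GU n F q, a.1.1 * P = w • (P * b.1.map C.j)) := by
  have hM0 := h.ne_zero hn
  obtain ⟨hd, P, Q, g, z, l, e, h1, h2, hz, hl, hM, he, hσz, hG, hg, rfl⟩ := h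
  refine ⟨P, Q, h1, h2, fun a => ?_, fun w b u hw hb hu => ?_⟩
  · have key := conj_key C hn h1 h2 h1 h2 hl hl hz hM0 hG hG hg hg a
    rw [stab, Subgroup.mem_comap, Subgroup.mem_centralizer_singleton_iff, ← mul_inv_eq_iff_eq_mul,
      key]
    constructor
    · rintro ⟨w, B, B', u, hw, ha, hBB, hBB', hrel, hu⟩
      refine ⟨w, ⟨B, B', hBB, hBB'⟩, u, hw, ha, hrel, mul_right_cancel₀ hz ?_⟩
      linear_combination hu
    · rintro ⟨w, b, u, hw, ha, hrel, hu⟩
      refine ⟨w, b.1, (b⁻¹).1, u, hw, ha, b.mul_inv, b.inv_mul, hrel, ?_⟩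
      linear_combination z * hu
  · exact exists_commuting hn h1 h2 h1 h2 hG hG hw b.mul_inv b.inv_mul hb
      (by linear_combination z * hu)

theorem centralizer_equiv_att (hn : 3 ≤ n) {γ : MulAut (Cfsg.PSU n F q)} {M : Matrix ι ι F₀}
    (h : Att C γ M) :
    Nonempty (↥(Cfsg.inndiagPSU n F q ⊓ Subgroup.centralizer {γ}) ≃*
      Cfsg.projQuot (simGL M)) := by
  haveI : Nonempty (Fin n) := ⟨⟨0, by omega⟩⟩
  have hne : Nonempty ι := Fintype.card_pos_iff.mp (by rw [h.card_eq]; omega)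
  obtain ⟨P, Q, h1, h2, hmem, hex⟩ := exists_rep hn h
  choose w b u hw ha hb hu using fun a : stab γ => (hmem a.1).1 a.2
  let π := QuotientGroup.mk' ((Cfsg.Geo.scalars ι F₀).subgroupOf (simGL M))
  have hcancel : ∀ {X Y : Matrix ι ι F}, P * X = P * Y → X = Y := fun {X Y} e => by
    have := congrArg (Q * ·) e
    simpa [← Matrix.mul_assoc, h2] using this
  have huniq : ∀ (a : Cfsg.GU n F q) (w w' : F) (b b' : GL ι F₀) (hb1 : b ∈ simGL M)
      (hb2 : b' ∈ simGL M), w ≠ 0 → w' ≠ 0 → a.1.1 * P = w • (P * b.1.map C.j) →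
      a.1.1 * P = w' • (P * b'.1.map C.j) → π ⟨b, hb1⟩ = π ⟨b', hb2⟩ := by
    intro a w w' b b' hb1 hb2 hw hw' e e'
    rw [e, ← Matrix.mul_smul, ← Matrix.mul_smul] at e'
    have e2 : b'.1.map C.j = (w / w') • b.1.map C.j := by
      have := congrArg (w'⁻¹ • ·) (hcancel e')
      simp only [smul_smul, inv_mul_cancel₀ hw', one_smul] at this
      rw [← this, div_eq_inv_mul]
    obtain ⟨x, y, hxy⟩ : ∃ x y, b.1 x y ≠ 0 := by
      by_contra hc
      push Not at hc
      exact b.ne_zero (Matrix.ext hc)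
    have hbxy : C.j (b.1 x y) ≠ 0 := (map_ne_zero _).2 hxy
    have hk : w / w' = C.j (b'.1 x y / b.1 x y) := by
      have := congrFun (congrFun e2 x) y
      simp only [Matrix.smul_apply, Matrix.map_apply, smul_eq_mul] at this
      rw [map_div₀, this, mul_div_assoc, div_self hbxy, mul_one]
    have hk0 : b'.1 x y / b.1 x y ≠ 0 := fun h0 => by
      rw [h0, map_zero] at hk; exact div_ne_zero hw hw' hk
    have e3 : b' = GeneralLinearGroup.scalar ι (Units.mk0 _ hk0) * b := by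
      refine Units.ext (Matrix.map_injective C.j.injective ?_)
      show b'.1.map C.j = _
      rw [e2, hk, Units.val_mul, scalar_val, Matrix.smul_mul, Matrix.one_mul, Units.val_mk0,
        ← map_j_smul]
    refine QuotientGroup.eq.mpr ?_
    rw [Subgroup.mem_subgroupOf, scalars_eq_range]
    refine ⟨Units.mk0 _ hk0, ?_⟩
    show _ = b⁻¹ * b'
    generalize Units.mk0 _ hk0 = k₀ at e3 ⊢
    rw [e3]
    refine Units.ext ?_
    rw [Units.val_mul, Units.val_mul, scalar_val, Matrix.smul_mul, Matrix.one_mul, Matrix.mul_smul,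
      Units.inv_mul]
  let θ : stab γ →* Cfsg.projQuot (simGL M) := MonoidHom.mk' (fun a => π ⟨b a, u a, hb a⟩) (by
    intro a a'
    rw [← map_mul]
    refine huniq (a.1 * a'.1) _ (w a * w a') _ (b a * b a') _
      (mul_mem ⟨_, hb a⟩ ⟨_, hb a'⟩) (hw _) (mul_ne_zero (hw a) (hw a')) (ha (a * a')) ?_
    rw [Subgroup.coe_mul, Units.val_mul, Matrix.mul_assoc, ha a', Matrix.mul_smul,
      ← Matrix.mul_assoc, ha a, Matrix.smul_mul, smul_smul, Units.val_mul, Matrix.map_mul (f := C.j),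
      Matrix.mul_assoc, mul_comm])
  have hsurj : Function.Surjective θ := by
    intro x
    obtain ⟨⟨b₀, u₀, hb₀⟩, rfl⟩ := QuotientGroup.mk'_surjective _ x
    have hju : C.j (u₀ : F₀) ≠ 0 := (map_ne_zero _).2 u₀.ne_zero
    obtain ⟨w₀, hw₀⟩ := exists_norm_fixed C (c := (C.j (u₀ : F₀))⁻¹) (by rw [map_inv₀, C.j_fixed])
    have hu₀ : w₀ * C.σ w₀ * C.j u₀ = 1 := by rw [hw₀, inv_mul_cancel₀ hju]
    have hw0 : w₀ ≠ 0 := fun h0 => by simp [h0] at hu₀
    obtain ⟨a, ha₀⟩ := hex w₀ b₀ u₀ hw0 hb₀ hu₀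
    have ham : a ∈ stab γ := (hmem a).2 ⟨w₀, b₀, u₀, hw0, ha₀, hb₀, hu₀⟩
    exact ⟨⟨a, ham⟩, huniq a _ _ _ _ _ _ (hw _) hw0 (ha ⟨a, ham⟩) ha₀⟩
  let f := (A n q F).comp (stab γ).subtype
  have hker : θ.ker = f.ker := by
    ext a
    rw [MonoidHom.mem_ker, MonoidHom.mem_ker, MonoidHom.comp_apply, Subgroup.coe_subtype,
      A_eq_one_iff hF hn]
    constructor
    · intro hθ
      change π ⟨b a, u a, hb a⟩ = 1 at hθ
      rw [QuotientGroup.mk'_apply, QuotientGroup.eq_one_iff, Subgroup.mem_subgroupOf,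
        scalars_eq_range] at hθ
      obtain ⟨s, hs'⟩ := hθ
      have hs : GeneralLinearGroup.scalar ι s = b a := hs'
      have e : a.1.1.1 = (w a * C.j s) • (1 : Matrix (Fin n) (Fin n) F) := by
        have h3 := ha a
        rw [← hs, scalar_val, map_j_smul, Matrix.map_one _ (map_zero _) (map_one _),
          Matrix.mul_smul, Matrix.mul_one, smul_smul] at h3
        calc a.1.1.1 = a.1.1.1 * P * Q := by rw [Matrix.mul_assoc, h1, Matrix.mul_one]
          _ = _ := by rw [h3, Matrix.smul_mul, h1]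
      obtain ⟨k, hk⟩ := (A_eq_one_iff hF hn a.1).1 (by
        rw [← map_one (A n q F)]
        exact (A_eq_of_smul C hn (g := 1) (h := a.1) e).symm)
      exact ⟨k, hk⟩
    · rintro ⟨k, hk⟩
      show π ⟨b a, u a, hb a⟩ = 1
      rw [← map_one π]
      refine huniq a.1 _ ((k : Fˣ) : F) _ 1 _ (one_mem _) (hw a) (k : Fˣ).ne_zero (ha a) ?_
      rw [← hk, sc_val, ← Matrix.smul_one_eq_diagonal, Matrix.smul_mul, Matrix.one_mul,
        Units.val_one, Matrix.map_one _ (map_zero _) (map_one _), Matrix.mul_one]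
  have hr : f.range = (stab γ).map (A n q F) := by
    rw [MonoidHom.range_comp, Subgroup.range_subtype]
  rw [centralizer_eq_stab]
  exact ⟨(((MulEquiv.subgroupCongr hr).symm.trans (QuotientGroup.quotientKerEquivRange f).symm).trans
    (QuotientGroup.quotientMulEquivOfEq hker.symm)).trans
    (QuotientGroup.quotientKerEquivOfSurjective θ hsurj)⟩

/-- The determinants of the unitary matrices commuting with `γ`. -/
theorem mem_detImage (hn : 3 ≤ n) {γ : MulAut (Cfsg.PSU n F q)} {M : Matrix ι ι F₀}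
    (h : Att C γ M) (x : normOne F q) :
    x ∈ (stab γ).map (Forms.guDet hF) ↔ ∃ (w : F) (b : GL ι F₀) (u : F₀ˣ),
      b.1.transpose * M * b.1 = (u : F₀) • M ∧ w * C.σ w * C.j u = 1 ∧
      ((x : Fˣ) : F) = w ^ n * C.j b.1.det := by
  have hcard := h.card_eq
  obtain ⟨P, Q, h1, h2, hmem, hex⟩ := exists_rep hn h
  have hdet : ∀ (a : Cfsg.GU n F q) (w : F) (b : GL ι F₀),
      a.1.1 * P = w • (P * b.1.map C.j) → a.1.1.det = w ^ n * C.j b.1.det := by
    intro a w b e
    have e1 : (conjEquiv P Q h1 h2 a.1).1 = w • b.1.map C.j := by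
      rw [conjEquiv_val, Matrix.mul_assoc, e, Matrix.mul_smul, ← Matrix.mul_assoc, h2,
        Matrix.one_mul]
    have e2 := congrArg Units.val (det_conjEquiv P Q h1 h2 a.1)
    rw [GeneralLinearGroup.val_det_apply, GeneralLinearGroup.val_det_apply, e1, Matrix.det_smul,
      hcard] at e2
    rw [← e2, show b.1.map C.j = C.j.mapMatrix b.1 from rfl, ← RingHom.map_det]
  constructor
  · rintro ⟨a, ha, rfl⟩
    obtain ⟨w, b, u, hw, e, hb, hu⟩ := (hmem a).1 ha
    exact ⟨w, b, u, hb, hu, hdet a w b e⟩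
  · rintro ⟨w, b, u, hb, hu, hx⟩
    have hw : w ≠ 0 := fun h0 => by simp [h0] at hu
    obtain ⟨a, e⟩ := hex w b u hw hb hu
    exact ⟨a, (hmem a).2 ⟨w, b, u, hw, e, hb, hu⟩,
      Subtype.ext (Units.ext ((hdet a w b e).trans hx.symm))⟩

theorem split_eq_stab (hn : 3 ≤ n) (γ : MulAut (Cfsg.PSU n F q)) :
    Cfsg.splitClassCount (Cfsg.inndiagPSU n F q) (Cfsg.Inn (Cfsg.PSU n F q)) γ =
      ((stab γ).map (Forms.guDet hF)).index := by
  haveI : (Cfsg.Inn (Cfsg.PSU n F q)).Normal := ⟨by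
    rintro _ ⟨k, rfl⟩ β
    exact ⟨β k, MulEquiv.ext fun y => by
      show β k * y * (β k)⁻¹ = β (k * β⁻¹ y * k⁻¹)
      rw [map_mul, map_mul, map_inv, MulAut.apply_inv_self]⟩⟩
  have hinn : Cfsg.Inn (Cfsg.PSU n F q) = (Forms.guDet (n := n) hF).ker.map (A n q F) := by
    rw [← Forms.suToGU_range hF]
    ext β
    constructor
    · rintro ⟨k, rfl⟩
      induction k using QuotientGroup.induction_on with
      | H s => exact ⟨Forms.suToGU s, ⟨s, rfl⟩, (conj_eq s).symm⟩
    · rintro ⟨_, ⟨s, rfl⟩, rfl⟩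
      exact ⟨QuotientGroup.mk s, conj_eq s⟩
  have hle : Cfsg.Inn (Cfsg.PSU n F q) ≤ Cfsg.inndiagPSU n F q := by
    rw [hinn, inndiagPSU_eq]; exact Subgroup.map_le_range _ _
  rw [AutPSL.splitClassCount_eq_relIndex _ _ hle, centralizer_eq_stab, hinn, inndiagPSU_eq,
    ← Subgroup.map_sup, ← Subgroup.index_comap, Subgroup.comap_map_eq_self]
  · rw [show (Forms.guDet (n := n) hF).ker ⊔ stab γ =
        ((stab γ).map (Forms.guDet hF)).comap (Forms.guDet hF) by
      rw [Subgroup.comap_map_eq, sup_comm],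
      Subgroup.index_comap_of_surjective _ (Forms.guDet_surjective hF (by omega))]
  · refine le_trans ?_ le_sup_right
    intro a ha
    rw [stab, Subgroup.mem_comap, MonoidHom.mem_ker.mp ha]
    exact one_mem _

end Cfsg.Agent.KnownB.GraphInv
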