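import Cfsg.Agent.KnownB.GraphInv.PSUCentralizer
import Cfsg.Agent.KnownB.GraphInv.Common

/-! Determinants of the centralisers of involutory graph automorphisms of `PSU_n(q)`. -/

set_option autoImplicit false
set_option maxHeartbeats 1000000

namespace Cfsg.Agent.KnownB.GraphInv

open Matrix
open Cfsg.Agent.KnownB.Proj.Unit
open Cfsg.Agent.Forms (frobQ normOne)

universe u v

variable {n q : ℕ} {F : Type u} [Field F] [Fintype F] {hF : Fintype.card F = q ^ 2}
variable {F₀ : Type v} [Field F₀] [Fintype F₀] {C : UCtx hF F₀} {ι : Type}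
  [Fintype ι] [DecidableEq ι]

omit [Fintype F₀] in
theorem mem_normOne_iff (C : UCtx hF F₀) {c : Fˣ} :
    c ∈ normOne F q ↔ (c : F) * C.σ c = 1 := by
  rw [Forms.mem_normOne hF, C.hσ]

theorem val_pow (y : normOne F q) (k : ℕ) : (((y ^ k : normOne F q) : Fˣ) : F) = ((y : Fˣ) : F) ^ k := by
  rw [SubmonoidClass.coe_pow, Units.val_pow_eq_pow_val]

theorem normOne_ext {x y : normOne F q} (h : ((x : Fˣ) : F) = ((y : Fˣ) : F)) : x = y :=
  Subtype.ext (Units.ext h)

omit [Fintype F₀] in
theorem exists_normOne_of (C : UCtx hF F₀) {a : F} (ha : a * C.σ a = 1) :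
    ∃ y : normOne F q, ((y : Fˣ) : F) = a := by
  have ha0 : a ≠ 0 := fun h0 => by simp [h0] at ha
  exact ⟨⟨Units.mk0 a ha0, (mem_normOne_iff C).2 ha⟩, rfl⟩

omit [Fintype F₀] in
/-- Every norm-one element is `t / σ t`, with `t σ t` in the fixed field. -/
theorem exists_div (C : UCtx hF F₀) (y : normOne F q) :
    ∃ (t : F) (r : F₀ˣ), t ≠ 0 ∧ t = ((y : Fˣ) : F) * C.σ t ∧ t * C.σ t = C.j r := by
  obtain ⟨t, ht0, ht⟩ := exists_hilbert C ((mem_normOne_iff C).1 y.2)
  obtain ⟨r, hr⟩ := (C.hj (t * C.σ t)).1 (by rw [map_mul, C.invol, mul_comm])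
  have hr0 : r ≠ 0 := fun h0 => by
    rw [h0, map_zero] at hr
    exact mul_ne_zero ht0 ((map_ne_zero _).2 ht0) hr.symm
  exact ⟨t, Units.mk0 r hr0, ht0, ht, hr.symm⟩

theorem detImage_skew (hn : 3 ≤ n) {m : ℕ} (hm : n = 2 * m)
    {γ : MulAut (Cfsg.PSU n F q)} (h : Att C γ (Matrix.J (Fin m) F₀)) :
    (stab γ).map (Forms.guDet hF) = (powMonoidHom m : normOne F q →* normOne F q).range := by
  ext x
  rw [mem_detImage hn h]
  constructor
  · rintro ⟨w, b, u, hb, hu, hx⟩
    have hdet : b.1.det = (u : F₀) ^ m := by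
      have := congrArg Units.val (det_gsp hb)
      rwa [GeneralLinearGroup.val_det_apply, Units.val_pow_eq_pow_val] at this
    have hy : w ^ 2 * C.j u * C.σ (w ^ 2 * C.j u) = 1 := by
      rw [map_mul, map_pow, C.j_fixed]
      linear_combination (w * C.σ w * C.j u + 1) * hu
    obtain ⟨y, hy'⟩ := exists_normOne_of C hy
    refine ⟨y, normOne_ext ?_⟩
    rw [powMonoidHom_apply, val_pow, hy', hx, hdet, map_pow, hm, mul_pow, ← pow_mul]
  · rintro ⟨y, rfl⟩
    obtain ⟨t, r, ht0, ht, hr⟩ := exists_div C y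
    refine ⟨t, Dsim m F₀ r⁻¹, r⁻¹, Dsim_rel m _, ?_, ?_⟩
    · rw [hr, ← map_mul, ← Units.val_mul, mul_inv_cancel, Units.val_one, map_one]
    · have hdet : (Dsim m F₀ r⁻¹).1.det = ((r⁻¹ : F₀ˣ) : F₀) ^ m := by
        have := congrArg Units.val (Dsim_det (F := F₀) m r⁻¹)
        rwa [GeneralLinearGroup.val_det_apply, Units.val_pow_eq_pow_val] at this
      rw [powMonoidHom_apply, val_pow, hdet, map_pow, hm, pow_mul, ← mul_pow]
      congr 1
      rw [Units.val_inv_eq_inv_val, map_inv₀, ← hr, pow_two, mul_inv]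
      have hst : C.σ t ≠ 0 := (map_ne_zero _).2 ht0
      field_simp
      exact ht.symm

theorem detImage_symm (hn : 3 ≤ n) (h2 : (2 : F₀) ≠ 0) {m : ℕ} (hm : n = 2 * m)
    {γ : MulAut (Cfsg.PSU n F q)} {M : Matrix ι ι F₀} (h : Att C γ M) (hM : M.transpose = M) :
    (stab γ).map (Forms.guDet hF) =
      ((powMonoidHom (2 * m) : normOne F q →* normOne F q).range).comap
        (powMonoidHom 2 : normOne F q →* normOne F q) := by
  have hcard : Fintype.card ι = 2 * m := h.card_eq.trans hm
  have hd : M.det ≠ 0 := h.1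
  have hd2 : ∀ {b : GL ι F₀} {u : F₀ˣ}, b.1.transpose * M * b.1 = (u : F₀) • M →
      b.1.det ^ 2 = (u : F₀) ^ (2 * m) := by
    intro b u hb
    have := congrArg Units.val (det_sq hd hb)
    rwa [hcard, Units.val_pow_eq_pow_val, GeneralLinearGroup.val_det_apply,
      Units.val_pow_eq_pow_val] at this
  ext x
  rw [mem_detImage hn h, Subgroup.mem_comap, powMonoidHom_apply]
  constructor
  · rintro ⟨w, b, u, hb, hu, hx⟩
    have hy : w ^ 2 * C.j u * C.σ (w ^ 2 * C.j u) = 1 := by
      rw [map_mul, map_pow, C.j_fixed]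
      linear_combination (w * C.σ w * C.j u + 1) * hu
    obtain ⟨y, hy'⟩ := exists_normOne_of C hy
    refine ⟨y, normOne_ext ?_⟩
    rw [powMonoidHom_apply, val_pow, hy', val_pow, hx, mul_pow, mul_pow (w ^ n), ← map_pow C.j b.1.det,
      hd2 hb, map_pow, hm, ← pow_mul, ← pow_mul, mul_comm (2 * m) 2]
  · rintro ⟨y, hy⟩
    rw [powMonoidHom_apply] at hy
    obtain ⟨t, r, ht0, ht, hr⟩ := exists_div C y
    obtain ⟨b, hb⟩ := exists_multiplier h2 (M := M) hM hd (by omega) ⟨m, by omega⟩ r⁻¹
    have hu : t * C.σ t * C.j ((r⁻¹ : F₀ˣ) : F₀) = 1 := by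
      rw [hr, ← map_mul, ← Units.val_mul, mul_inv_cancel, Units.val_one, map_one]
    have hx0 : (t ^ n * C.j b.1.det) ^ 2 = ((x : Fˣ) : F) ^ 2 := by
      have e := congrArg (fun z : normOne F q => ((z : Fˣ) : F)) hy
      simp only [val_pow] at e
      rw [← e, mul_pow, ← map_pow, hd2 hb, map_pow, hm, ← pow_mul, mul_comm (2 * m) 2, pow_mul,
        ← mul_pow]
      congr 1
      rw [Units.val_inv_eq_inv_val, map_inv₀, ← hr, pow_two, mul_inv]
      have hst : C.σ t ≠ 0 := (map_ne_zero _).2 ht0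
      field_simp
      linear_combination ht
    rcases sq_eq_sq_iff_eq_or_eq_neg.mp hx0 with e | e
    · exact ⟨t, b, r⁻¹, hb, hu, e.symm⟩
    · obtain ⟨R, -, hR, hRd⟩ := exists_neg_one_isometry h2 (M := M) hM hd (by omega)
      refine ⟨t, R * b, r⁻¹, ?_, hu, ?_⟩
      · calc (R * b).1.transpose * M * (R * b).1
            = b.1.transpose * (R.1.transpose * M * R.1) * b.1 := by
              rw [Units.val_mul, Matrix.transpose_mul]; simp only [Matrix.mul_assoc]
          _ = _ := by rw [hR, hb]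
      · have hRd' : R.1.det = -1 := by
          have := congrArg Units.val hRd
          rwa [GeneralLinearGroup.val_det_apply, Units.val_neg, Units.val_one] at this
        rw [Units.val_mul, Matrix.det_mul, hRd', neg_one_mul, map_neg, mul_neg, e, neg_neg]

theorem detImage_generic (hn : 3 ≤ n) {γ : MulAut (Cfsg.PSU n F q)} {M : Matrix ι ι F₀}
    (h : Att C γ M) (hgen : ¬ (Even n ∧ (2 : F₀) ≠ 0)) :
    (stab γ).map (Forms.guDet hF) = (powMonoidHom n : normOne F q →* normOne F q).range := by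
  have hcard := h.card_eq
  have hd : M.det ≠ 0 := h.1
  have hsd := simDet_generic hd (by rw [hcard]; exact hgen)
  ext x
  rw [mem_detImage hn h]
  constructor
  · rintro ⟨w, b, u, hb, hu, hx⟩
    obtain ⟨d, hd'⟩ : GeneralLinearGroup.det b ∈ (powMonoidHom n : F₀ˣ →* F₀ˣ).range := by
      rw [← hcard, ← hsd]; exact ⟨b, ⟨u, hb⟩, rfl⟩
    have hdv : b.1.det = (d : F₀) ^ n := by
      have := congrArg Units.val hd'
      rw [powMonoidHom_apply, Units.val_pow_eq_pow_val, GeneralLinearGroup.val_det_apply] at this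
      exact this.symm
    have hu2 : (d * d) ^ n = u ^ n := by
      rw [← pow_two, ← pow_mul, mul_comm 2, pow_mul]
      have := det_sq hd hb
      rw [hcard, ← hd', powMonoidHom_apply] at this
      exact this
    set e := w * C.j d with he
    have hee : (e * C.σ e) ^ n = 1 := by
      have e1 : e * C.σ e = w * C.σ w * C.j ((d * d : F₀ˣ) : F₀) := by
        rw [he, map_mul, C.j_fixed, Units.val_mul, map_mul]; ring
      rw [e1, mul_pow, ← map_pow, ← Units.val_pow_eq_pow_val, hu2, Units.val_pow_eq_pow_val,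
        map_pow, ← mul_pow, hu, one_pow]
    -- adjust `d` to have norm one
    obtain ⟨s, hs⟩ : ∃ s : F₀ˣ, s * s = u := by
      rcases Nat.even_or_odd n with he' | ho
      · have h2 : (2 : F₀) = 0 := by by_contra h2; exact hgen ⟨he', h2⟩
        haveI := charP_two_of h2
        exact exists_unit_sq u
      · exact squares_of_odd hd (hcard ▸ ho) hb
    have hsn : ((w * C.j s) * C.σ (w * C.j s)) = 1 := by
      rw [map_mul, C.j_fixed, ← hu, ← hs, Units.val_mul, map_mul]; ring
    obtain ⟨y, hy⟩ := exists_normOne_of C hsn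
    have hds : (d / s) ^ n = 1 ∨ (d / s) ^ n = -1 := by
      have h4 : ((d / s) ^ n) ^ 2 = 1 := by
        rw [← pow_mul, mul_comm, pow_mul, div_pow, pow_two, pow_two, hs, div_pow, hu2, div_self']
      have h4' : (((d / s) ^ n : F₀ˣ) : F₀) ^ 2 = 1 := by
        rw [← Units.val_pow_eq_pow_val, h4, Units.val_one]
      rcases sq_eq_one_iff.mp h4' with h5 | h5
      · exact Or.inl (Units.ext h5)
      · exact Or.inr (Units.ext (h5.trans (by rw [Units.val_neg, Units.val_one])))
    have hdn : (d : F₀) ^ n = (s : F₀) ^ n ∨ (d : F₀) ^ n = -((s : F₀) ^ n) := by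
      rcases hds with h5 | h5
      · refine Or.inl ?_
        rw [div_pow, div_eq_one] at h5
        simpa using congrArg Units.val h5
      · refine Or.inr ?_
        rw [div_pow, div_eq_iff_eq_mul, neg_one_mul] at h5
        simpa using congrArg Units.val h5
    rcases hdn with h5 | h5
    · exact ⟨y, normOne_ext (by
        rw [powMonoidHom_apply, val_pow, hy, hx, hdv, h5, map_pow, mul_pow])⟩
    · rcases Nat.even_or_odd n with he' | ho
      · have h2 : (2 : F₀) = 0 := by by_contra h2; exact hgen ⟨he', h2⟩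
        refine ⟨y, normOne_ext ?_⟩
        rw [powMonoidHom_apply, val_pow, hy, hx, hdv, mul_pow, ← map_pow, h5]
        congr 2
        linear_combination ((s : F₀) ^ n) * h2
      · obtain ⟨y', hy'⟩ := exists_normOne_of C (a := -(w * C.j s)) (by
          rw [map_neg, neg_mul_neg]; exact hsn)
        refine ⟨y', normOne_ext ?_⟩
        rw [powMonoidHom_apply, val_pow, hy', hx, hdv, h5, ho.neg_pow, mul_pow, map_neg, map_pow,
          mul_neg]
  · rintro ⟨y, rfl⟩
    refine ⟨((y : Fˣ) : F), 1, 1, ?_, ?_, ?_⟩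
    · simp
    · rw [Units.val_one, map_one, mul_one]; exact (mem_normOne_iff C).1 y.2
    · rw [powMonoidHom_apply, val_pow, Units.val_one, Matrix.det_one, map_one, mul_one]

theorem even_card_normOne (hodd : Odd q) (hF : Fintype.card F = q ^ 2) :
    Even (Nat.card (normOne F q)) := by
  rw [Forms.card_normOne hF]
  exact hodd.add_odd odd_one

end Cfsg.Agent.KnownB.GraphInv
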